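import Mathlib
import Cfsg.Agent.Lib.Helper15.FH0
import Cfsg.Agent.Lib.Helper8.BN3

set_option autoImplicit false

namespace Cfsg.Agent.Lib.Helper8.FHB

open Cfsg Cfsg.Agent.Lib.Helper8 Cfsg.Agent.Lib.Helper15.FH

universe u

variable {G : Type u} [Group G]

/-- `B ∪ B σ B` is closed under multiplication -/
theorem par_mul (P : BNPair G) {σ : G} (hσ : σ ∈ P.S) {g g' : G}
    (hg : g ∈ (P.B : Set G) ∪ dc P σ) (hg' : g' ∈ (P.B : Set G) ∪ dc P σ) :
    g * g' ∈ (P.B : Set G) ∪ dc P σ := by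
  rw [← parabolic_singleton_coe P hσ] at hg hg' ⊢
  exact (P.parabolic {σ}).mul_mem hg hg'

/-- `B ∪ B σ B` is closed under inverses -/
theorem par_inv (P : BNPair G) {σ : G} (hσ : σ ∈ P.S) {g : G}
    (hg : g ∈ (P.B : Set G) ∪ dc P σ) : g⁻¹ ∈ (P.B : Set G) ∪ dc P σ := by
  rw [← parabolic_singleton_coe P hσ] at hg ⊢
  exact (P.parabolic {σ}).inv_mem hg

theorem dc_mul_dc (P : BNPair G) {σ : G} (hσ : σ ∈ P.S) (n : P.N)
    (hle : len (SW P) (cl P n) ≤ len (SW P) (cl P (sN P hσ * n))) {g g' : G}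
    (hg : g ∈ dc P σ) (hg' : g' ∈ dc P (n : G)) : g * g' ∈ dc P (σ * (n : G)) := by
  obtain ⟨b₁, hb₁, b₂, hb₂, rfl⟩ := mem_dc.1 hg
  obtain ⟨b₃, hb₃, b₄, hb₄, rfl⟩ := mem_dc.1 hg'
  have h1 := dc_mul_of_le P hσ n hle (P.B.mul_mem hb₂ hb₃)
  have h2 := dc_mul_right_mem hb₄ (dc_mul_left_mem hb₁ h1)
  have e : b₁ * σ * b₂ * (b₃ * (n : G) * b₄) = b₁ * (σ * (b₂ * b₃) * (n : G)) * b₄ := by group
  rw [e]; exact h2

/-- no element of `B` lies in `B σ B` -/
theorem not_mem_dc_of_mem (P : BNPair G) {σ : G} (hσ : σ ∈ P.S) {b : G} (hb : b ∈ P.B) :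
    b ∉ dc P σ := by
  intro h
  have h1 : dc P b = dc P σ := dc_eq_of_mem h
  rw [dc_of_mem hb] at h1
  have h2 : σ ∈ (P.B : Set G) := by rw [h1]; exact mem_dc_self P σ
  exact S_not_mem_B P hσ h2

/-- `B σ B` is closed under inverses -/
theorem dc_inv_self (P : BNPair G) {σ : G} (hσ : σ ∈ P.S) {g : G} (hg : g ∈ dc P σ) :
    g⁻¹ ∈ dc P σ := by
  have h1 : g⁻¹ ∈ dc P σ⁻¹ := dc_inv_mem hg
  have h2 : σ⁻¹ ∈ dc P σ := by
    have h3 := dc_mul_left_mem (S_sq_inv_mem P hσ) (mem_dc_self P σ)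
    have e : (σ * σ)⁻¹ * σ = σ⁻¹ := by group
    rwa [e] at h3
  rw [dc_eq_of_mem h2] at h1
  exact h1

/-- S1142 piece B2: `T_x T_w = T_{xw}` when the length goes up. -/
theorem Tmat_mul [Finite G] (P : BNPair G) {x : W P} (hx : x ∈ SW P) (w : W P)
    (h : len (SW P) w < len (SW P) (x * w)) : Tmat P x * Tmat P w = Tmat P (x * w) := by
  obtain ⟨σ, hσ, rfl⟩ := hx
  obtain ⟨n, rfl⟩ := QuotientGroup.mk_surjective w
  have hle : len (SW P) (cl P n) ≤ len (SW P) (cl P (sN P hσ * n)) := h.le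
  have hx1 : dcW P (cl P (sN P hσ)) = dc P σ := dcW_cl P (sN P hσ)
  have hw1 : dcW P (cl P n) = dc P (n : G) := dcW_cl P n
  have hxw1 : dcW P (cl P (sN P hσ) * cl P n) = dc P (σ * (n : G)) := by
    rw [← cl_mul]; exact dcW_cl P (sN P hσ * n)
  ext X Z
  obtain ⟨a, rfl⟩ := Ch.mk_surjective P X
  obtain ⟨c, rfl⟩ := Ch.mk_surjective P Z
  rw [Matrix.mul_apply]
  by_cases hac : a⁻¹ * c ∈ dc P (σ * (n : G))
  · obtain ⟨b₁, hb₁, b₂, hb₂, e⟩ := mem_dc.1 hac
    have hc : c = a * (b₁ * (σ * (n : G)) * b₂) := by rw [← e]; group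
    have hR : Tmat P (cl P (sN P hσ) * cl P n) (Ch.mk P a) (Ch.mk P c) = 1 :=
      Tmat_mk_of_mem P (by rw [hxw1]; exact hac)
    change ∑ Y : Ch P, Tmat P (cl P (sN P hσ)) (Ch.mk P a) Y * Tmat P (cl P n) Y (Ch.mk P c)
      = Tmat P (cl P (sN P hσ) * cl P n) (Ch.mk P a) (Ch.mk P c)
    rw [hR, Finset.sum_eq_single (Ch.mk P (a * b₁ * σ))]
    · have t1 : Tmat P (cl P (sN P hσ)) (Ch.mk P a) (Ch.mk P (a * b₁ * σ)) = 1 := by
        apply Tmat_mk_of_mem
        rw [hx1]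
        have e1 : a⁻¹ * (a * b₁ * σ) = b₁ * σ := by group
        rw [e1]; exact dc_mul_left_mem hb₁ (mem_dc_self P _)
      have t2 : Tmat P (cl P n) (Ch.mk P (a * b₁ * σ)) (Ch.mk P c) = 1 := by
        apply Tmat_mk_of_mem
        rw [hw1]
        have e1 : (a * b₁ * σ)⁻¹ * c = (n : G) * b₂ := by rw [hc]; group
        rw [e1]; exact dc_mul_right_mem hb₂ (mem_dc_self P _)
      rw [t1, t2, mul_one]
    · intro Y _ hY
      obtain ⟨y, rfl⟩ := Ch.mk_surjective P Y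
      by_contra hne
      have h1 : a⁻¹ * y ∈ dc P σ := by
        by_contra h1
        rw [Tmat_mk_of_not_mem P (w := cl P (sN P hσ)) (by rw [hx1]; exact h1), zero_mul] at hne
        exact hne rfl
      have h2 : y⁻¹ * c ∈ dc P (n : G) := by
        by_contra h2
        rw [Tmat_mk_of_not_mem P (w := cl P n) (by rw [hw1]; exact h2), mul_zero] at hne
        exact hne rfl
      apply hY
      obtain ⟨d, hd, e', he', e2⟩ := mem_dc.1 h1
      have hy : y = a * d * σ * e' := by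
        have : y = a * (a⁻¹ * y) := by group
        rw [this, e2]; group
      -- τ = σ⁻¹ (d⁻¹ b₁) σ
      have hβ : d⁻¹ * b₁ ∈ P.B := P.B.mul_mem (P.B.inv_mem hd) hb₁
      have hτn : σ⁻¹ * (d⁻¹ * b₁) * σ * (n : G) ∈ dc P (n : G) := by
        have h3 := dc_mul_right_mem (P.B.inv_mem hb₂) (dc_mul_left_mem he' h2)
        have e3 : e' * (y⁻¹ * c) * b₂⁻¹ = σ⁻¹ * (d⁻¹ * b₁) * σ * (n : G) := by
          rw [hy, hc]; group
        rwa [e3] at h3
      have hσpar : σ ∈ (P.B : Set G) ∪ dc P σ := Or.inr (mem_dc_self P σ)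
      have hτpar : σ⁻¹ * (d⁻¹ * b₁) * σ ∈ (P.B : Set G) ∪ dc P σ :=
        par_mul P hσ (par_mul P hσ (par_inv P hσ hσpar) (Or.inl hβ)) hσpar
      have hτ : σ⁻¹ * (d⁻¹ * b₁) * σ ∈ P.B := by
        rcases hτpar with hB | hD
        · exact hB
        · exfalso
          have h4 := dc_mul_dc P hσ n hle hD (mem_dc_self P (n : G))
          have h5 : dc P (σ * (n : G)) = dc P (n : G) := dc_eq_of_mem_of_mem h4 hτn
          have h6 : cl P (sN P hσ * n) = cl P n := cl_eq_of_dc_eq P h5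
          rw [cl_mul] at h6
          rw [h6] at h
          exact lt_irrefl _ h
      rw [Ch.mk_eq_mk]
      have e4 : y⁻¹ * (a * b₁ * σ) = e'⁻¹ * (σ⁻¹ * (d⁻¹ * b₁) * σ) := by rw [hy]; group
      rw [e4]
      exact P.B.mul_mem (P.B.inv_mem he') hτ
    · intro hnm; exact absurd (Finset.mem_univ _) hnm
  · have hR : Tmat P (cl P (sN P hσ) * cl P n) (Ch.mk P a) (Ch.mk P c) = 0 :=
      Tmat_mk_of_not_mem P (by rw [hxw1]; exact hac)
    change ∑ Y : Ch P, Tmat P (cl P (sN P hσ)) (Ch.mk P a) Y * Tmat P (cl P n) Y (Ch.mk P c)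
      = Tmat P (cl P (sN P hσ) * cl P n) (Ch.mk P a) (Ch.mk P c)
    rw [hR]
    apply Finset.sum_eq_zero
    intro Y _
    obtain ⟨y, rfl⟩ := Ch.mk_surjective P Y
    by_cases h1 : a⁻¹ * y ∈ dc P σ
    · by_cases h2 : y⁻¹ * c ∈ dc P (n : G)
      · exfalso; apply hac
        have h3 := dc_mul_dc P hσ n hle h1 h2
        have e : a⁻¹ * y * (y⁻¹ * c) = a⁻¹ * c := by group
        rwa [e] at h3
      · rw [Tmat_mk_of_not_mem P (w := cl P n) (by rw [hw1]; exact h2), mul_zero]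
    · rw [Tmat_mk_of_not_mem P (w := cl P (sN P hσ)) (by rw [hx1]; exact h1), zero_mul]

/-- S1142 piece B3: the quadratic relation `T_x² = q + (q - 1) T_x`. -/
theorem Tmat_sq [Finite G] (P : BNPair G) {x : W P} (hx : x ∈ SW P)
    (hrow : ∀ X : Ch P, ∑ Y, Tmat P x X Y = indB P x) :
    Tmat P x * Tmat P x
      = indB P x • (1 : Matrix (Ch P) (Ch P) ℝ) + (indB P x - 1) • Tmat P x := by
  obtain ⟨σ, hσ, rfl⟩ := hx
  have hx1 : dcW P (cl P (sN P hσ)) = dc P σ := dcW_cl P (sN P hσ)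
  set T := Tmat P (cl P (sN P hσ)) with hT
  set q := indB P (cl P (sN P hσ)) with hq
  have hone : ∀ a c : G, T (Ch.mk P a) (Ch.mk P c) = 1 ↔ a⁻¹ * c ∈ dc P σ := by
    intro a c
    rw [hT, Tmat_mk_eq_one_iff, hx1]
  have hzero : ∀ a c : G, a⁻¹ * c ∉ dc P σ → T (Ch.mk P a) (Ch.mk P c) = 0 := by
    intro a c hac
    rw [hT]
    exact Tmat_mk_of_not_mem P (by rw [hx1]; exact hac)
  have hdiag : ∀ X : Ch P, T X X = 0 := by
    intro X
    obtain ⟨a, rfl⟩ := Ch.mk_surjective P X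
    apply hzero
    have e : a⁻¹ * a = 1 := by group
    rw [e]
    exact not_mem_dc_of_mem P hσ P.B.one_mem
  have hsymm : ∀ X Y : Ch P, T X Y = T Y X := by
    intro X Y
    obtain ⟨a, rfl⟩ := Ch.mk_surjective P X
    obtain ⟨c, rfl⟩ := Ch.mk_surjective P Y
    by_cases hac : a⁻¹ * c ∈ dc P σ
    · have hca : c⁻¹ * a ∈ dc P σ := by
        have := dc_inv_self P hσ hac
        have e : (a⁻¹ * c)⁻¹ = c⁻¹ * a := by group
        rwa [e] at this
      rw [(hone a c).2 hac, (hone c a).2 hca]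
    · have hca : c⁻¹ * a ∉ dc P σ := by
        intro hca
        apply hac
        have := dc_inv_self P hσ hca
        have e : (c⁻¹ * a)⁻¹ = a⁻¹ * c := by group
        rwa [e] at this
      rw [hzero a c hac, hzero c a hca]
  have h01 : ∀ X Y : Ch P, T X Y = 0 ∨ T X Y = 1 := fun X Y => Tmat_eq_zero_or_one P _ X Y
  ext X Z
  rw [Matrix.mul_apply, Matrix.add_apply, Matrix.smul_apply, Matrix.smul_apply, smul_eq_mul,
    smul_eq_mul, Matrix.one_apply]
  by_cases hXZ : X = Z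
  · subst hXZ
    rw [if_pos rfl, hdiag X, mul_zero, add_zero, mul_one, ← hrow X]
    apply Finset.sum_congr rfl
    intro Y _
    rw [← hsymm X Y]
    rcases h01 X Y with h0 | h1
    · rw [h0, mul_zero]
    · rw [h1, mul_one]
  · rw [if_neg hXZ, mul_zero, zero_add]
    obtain ⟨a, rfl⟩ := Ch.mk_surjective P X
    obtain ⟨c, rfl⟩ := Ch.mk_surjective P Z
    by_cases hac : a⁻¹ * c ∈ dc P σ
    · rw [(hone a c).2 hac, mul_one]
      have key : ∀ Y : Ch P, T (Ch.mk P a) Y * T Y (Ch.mk P c)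
          = T (Ch.mk P a) Y - (if Y = Ch.mk P c then (1 : ℝ) else 0) := by
        intro Y
        by_cases hYZ : Y = Ch.mk P c
        · rw [if_pos hYZ, hYZ, hdiag, mul_zero, (hone a c).2 hac, sub_self]
        · rw [if_neg hYZ, sub_zero]
          obtain ⟨y, rfl⟩ := Ch.mk_surjective P Y
          by_cases hay : a⁻¹ * y ∈ dc P σ
          · have hyc : y⁻¹ * c ∈ dc P σ := by
              have h1 : y⁻¹ * a ∈ dc P σ := by
                have := dc_inv_self P hσ hay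
                have e : (a⁻¹ * y)⁻¹ = y⁻¹ * a := by group
                rwa [e] at this
              have h2 := par_mul P hσ (Or.inr h1) (Or.inr hac)
              have e : y⁻¹ * a * (a⁻¹ * c) = y⁻¹ * c := by group
              rw [e] at h2
              rcases h2 with hB | hD
              · exfalso; exact hYZ ((Ch.mk_eq_mk P).2 hB)
              · exact hD
            rw [(hone a y).2 hay, (hone y c).2 hyc, mul_one]
          · rw [hzero a y hay, zero_mul]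
      rw [Finset.sum_congr rfl (fun Y _ => key Y), Finset.sum_sub_distrib, hrow,
        Finset.sum_ite_eq' Finset.univ (Ch.mk P c) (fun _ => (1 : ℝ)), if_pos (Finset.mem_univ _)]
    · rw [hzero a c hac, mul_zero]
      apply Finset.sum_eq_zero
      intro Y _
      obtain ⟨y, rfl⟩ := Ch.mk_surjective P Y
      by_cases hay : a⁻¹ * y ∈ dc P σ
      · by_cases hyc : y⁻¹ * c ∈ dc P σ
        · exfalso
          have h2 := par_mul P hσ (Or.inr hay) (Or.inr hyc)
          have e : a⁻¹ * y * (y⁻¹ * c) = a⁻¹ * c := by group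
          rw [e] at h2
          rcases h2 with hB | hD
          · exact hXZ ((Ch.mk_eq_mk P).2 hB)
          · exact hac hD
        · rw [hzero y c hyc, mul_zero]
      · rw [hzero a y hay, zero_mul]

end Cfsg.Agent.Lib.Helper8.FHB
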