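import Mathlib
import Cfsg.Agent.Lib.Helper15.FH0
import Cfsg.Agent.Lib.Helper8.FHB

set_option autoImplicit false

namespace Cfsg.Agent.Lib.Helper8.FHB

open Cfsg Cfsg.Agent.Lib.Helper8 Cfsg.Agent.Lib.Helper15.FH

universe u

variable {G : Type u} [Group G]

theorem dcW_one (P : BNPair G) : dcW P (1 : W P) = (P.B : Set G) := by
  have h := dcW_cl P (1 : P.N)
  rw [OneMemClass.coe_one, dc_one] at h
  exact h

/-- S1142 piece B1 -/
theorem Tmat_one [Finite G] (P : BNPair G) : Tmat P 1 = 1 := by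
  ext X Y
  obtain ⟨a, rfl⟩ := Ch.mk_surjective P X
  obtain ⟨c, rfl⟩ := Ch.mk_surjective P Y
  rw [Matrix.one_apply]
  by_cases h : a⁻¹ * c ∈ P.B
  · rw [if_pos ((Ch.mk_eq_mk P).2 h)]
    exact Tmat_mk_of_mem P (by rw [dcW_one]; exact h)
  · rw [if_neg (fun h' => h ((Ch.mk_eq_mk P).1 h'))]
    exact Tmat_mk_of_not_mem P (by rw [dcW_one]; exact h)

/-- S1142 piece B1 -/
theorem Tmat_trace [Finite G] (P : BNPair G) {w : W P} (hw : w ≠ 1) : (Tmat P w).trace = 0 := by
  obtain ⟨n, rfl⟩ := QuotientGroup.mk_surjective w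
  rw [Matrix.trace]
  apply Finset.sum_eq_zero
  intro X _
  obtain ⟨a, rfl⟩ := Ch.mk_surjective P X
  rw [Matrix.diag_apply]
  apply Tmat_mk_of_not_mem
  have hw1 : dcW P (cl P n) = dc P (n : G) := dcW_cl P n
  intro h
  have h' : a⁻¹ * a ∈ dc P (n : G) := by rw [← hw1]; exact h
  have e : a⁻¹ * a = 1 := by group
  rw [e] at h'
  have h1 : dc P (1 : G) = dc P (n : G) := dc_eq_of_mem h'
  rw [dc_one] at h1
  have h2 : (n : G) ∈ P.B := mem_B_of_dc_eq h1.symm
  exact hw (cl_eq_one_iff.2 h2)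

/-- S1142 piece B1 : row sums are constant -/
theorem Tmat_row_sum [Finite G] (P : BNPair G) (w : W P) (X : Ch P) :
    ∑ Y, Tmat P w X Y = indB P w := by
  obtain ⟨x, rfl⟩ := Ch.mk_surjective P X
  rw [indB_def, ← Equiv.sum_comp (Ch.tr P x) (fun Y => Tmat P w (Ch.mk P x) Y)]
  apply Finset.sum_congr rfl
  intro Y _
  obtain ⟨y, rfl⟩ := Ch.mk_surjective P Y
  rw [Ch.tr_mk]
  have e1 : x⁻¹ * (x * y) = y := by group
  have e2 : (1 : G)⁻¹ * y = y := by group
  by_cases h : y ∈ dcW P w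
  · rw [Tmat_mk_of_mem P (by rw [e1]; exact h), Tmat_mk_of_mem P (by rw [e2]; exact h)]
  · rw [Tmat_mk_of_not_mem P (by rw [e1]; exact h), Tmat_mk_of_not_mem P (by rw [e2]; exact h)]

/-- S1142 piece B1 -/
theorem indB_pos [Finite G] (P : BNPair G) (w : W P) : 0 < indB P w := by
  obtain ⟨n, rfl⟩ := QuotientGroup.mk_surjective w
  rw [indB_def]
  have hw1 : dcW P (cl P n) = dc P (n : G) := dcW_cl P n
  have h1 : Tmat P (cl P n) (Ch.mk P 1) (Ch.mk P (n : G)) = 1 := by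
    apply Tmat_mk_of_mem
    rw [hw1, inv_one, one_mul]; exact mem_dc_self P _
  have h2 : ∀ Y ∈ (Finset.univ : Finset (Ch P)), 0 ≤ Tmat P (cl P n) (Ch.mk P 1) Y := by
    intro Y _
    rcases Tmat_eq_zero_or_one P (cl P n) (Ch.mk P 1) Y with h | h <;> rw [h] <;> norm_num
  have h3 := Finset.single_le_sum h2 (Finset.mem_univ (Ch.mk P (n : G)))
  rw [h1] at h3
  exact lt_of_lt_of_le one_pos h3

/-- S1142 piece B1 -/
theorem indB_gen [Finite G] (P : BNPair G) {x : W P} (hx : x ∈ SW P) :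
    ∃ k : ℕ, 2 ≤ k ∧ indB P x = k := by
  classical
  obtain ⟨σ, hσ, rfl⟩ := hx
  have hx1 : dcW P (cl P (sN P hσ)) = dc P σ := dcW_cl P (sN P hσ)
  refine ⟨(Finset.univ.filter
    (fun Y : Ch P => Tmat P (cl P (sN P hσ)) (Ch.mk P 1) Y = 1)).card, ?_, ?_⟩
  · obtain ⟨b, hb, hnot⟩ := exists_conj_not_mem P hσ
    have m1 : Ch.mk P σ ∈ Finset.univ.filter
        (fun Y : Ch P => Tmat P (cl P (sN P hσ)) (Ch.mk P 1) Y = 1) := by
      rw [Finset.mem_filter]; refine ⟨Finset.mem_univ _, Tmat_mk_of_mem P ?_⟩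
      rw [hx1, inv_one, one_mul]; exact mem_dc_self P σ
    have m2 : Ch.mk P (b * σ) ∈ Finset.univ.filter
        (fun Y : Ch P => Tmat P (cl P (sN P hσ)) (Ch.mk P 1) Y = 1) := by
      rw [Finset.mem_filter]; refine ⟨Finset.mem_univ _, Tmat_mk_of_mem P ?_⟩
      rw [hx1, inv_one, one_mul]; exact dc_mul_left_mem hb (mem_dc_self P σ)
    have hne : Ch.mk P σ ≠ Ch.mk P (b * σ) := by
      intro h
      rw [Ch.mk_eq_mk] at h
      apply hnot
      have h3 := P.B.mul_mem (P.sq_mem σ hσ) h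
      have e : σ * σ * (σ⁻¹ * (b * σ)) = σ * b * σ := by group
      rwa [e] at h3
    exact Finset.one_lt_card.2 ⟨_, m1, _, m2, hne⟩
  · rw [indB_def, Finset.card_filter]
    push_cast
    apply Finset.sum_congr rfl
    intro Y _
    rcases Tmat_eq_zero_or_one P (cl P (sN P hσ)) (Ch.mk P 1) Y with h | h
    · rw [h, if_neg (by norm_num)]
    · rw [h, if_pos rfl]

/-- S1142 piece B4 : assembly of B1–B3 -/
theorem bn_heckeData [Finite G] (P : BNPair G) :
    ∃ D : HeckeData (W P) (SW P) (Ch P), ∀ x ∈ SW P, ∃ k : ℕ, 2 ≤ k ∧ D.q x = k := by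
  have hone : indB P (1 : W P) = 1 := by
    rw [indB_def, Tmat_one]
    simp [Matrix.one_apply]
  have hmul : ∀ s ∈ SW P, ∀ w : W P, len (SW P) w < len (SW P) (s * w) →
      indB P (s * w) = indB P s * indB P w := by
    intro s hs w h
    rw [indB_def, ← Tmat_mul P hs w h, indB_def P s, Finset.sum_mul]
    have e : ∀ Z : Ch P, (Tmat P s * Tmat P w) (Ch.mk P 1) Z
        = ∑ Y, Tmat P s (Ch.mk P 1) Y * Tmat P w Y Z := fun Z => Matrix.mul_apply
    rw [Finset.sum_congr rfl (fun Z _ => e Z), Finset.sum_comm]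
    apply Finset.sum_congr rfl
    intro Y _
    rw [← Finset.mul_sum, Tmat_row_sum]
  exact ⟨{ q := indB P
           ind := indB P
           T := Tmat P
           ind_one := hone
           ind_pos := indB_pos P
           ind_mul := hmul
           T_one := Tmat_one P
           T_mul := fun s hs w h => Tmat_mul P hs w h
           T_sq := fun s hs => Tmat_sq P hs (fun X => Tmat_row_sum P s X)
           T_trace := fun w hw => Tmat_trace P hw }, fun x hx => indB_gen P hx⟩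

end Cfsg.Agent.Lib.Helper8.FHB
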