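import Mathlib

/-!
# S2718 piece GG-UNIV (helper8 for helper51): one eigenspace of an isometry involution of a
nondegenerate quadratic form over a finite field of odd characteristic is universal.
-/

set_option autoImplicit false

namespace Cfsg.Agent.Lib.Helper8.GGUNIV

open Matrix

section
variable {K : Type*} [Field K] {ι : Type} [Fintype ι]
  (Q : QuadraticForm K (ι → K)) (J : Matrix ι ι K)

theorem polar_J (hJ : ∀ v, Q (J *ᵥ v) = Q v) (x y : ι → K) :
    QuadraticMap.polar ⇑Q (J *ᵥ x) (J *ᵥ y) = QuadraticMap.polar ⇑Q x y := by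
  unfold QuadraticMap.polar
  rw [← Matrix.mulVec_add, hJ, hJ, hJ]

variable [DecidableEq ι]

theorem J_P (hJJ : J * J = 1) (v : ι → K) : J *ᵥ (v + J *ᵥ v) = v + J *ᵥ v := by
  rw [Matrix.mulVec_add, Matrix.mulVec_mulVec, hJJ, Matrix.one_mulVec, add_comm]

/-- the `1`-eigenspace contains an anisotropic vector unless `J = -1` -/
theorem exists_aniso (h2 : (2 : K) ≠ 0)
    (hQ : ∀ x : ι → K, (∀ y, QuadraticMap.polar ⇑Q y x = 0) → x = 0)
    (hJJ : J * J = 1) (hJ : ∀ v, Q (J *ᵥ v) = Q v) (hJ2 : J ≠ -1) :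
    ∃ x : ι → K, J *ᵥ x = x ∧ Q x ≠ 0 := by
  by_contra hcon
  push Not at hcon
  apply hJ2
  have hP : ∀ v : ι → K, v + J *ᵥ v = 0 := by
    intro v
    apply hQ
    intro w
    have h1 : QuadraticMap.polar ⇑Q (v + J *ᵥ v) (w + J *ᵥ w) = 0 := by
      have h5 : v + J *ᵥ v + (w + J *ᵥ w) = (v + w) + J *ᵥ (v + w) := by
        rw [Matrix.mulVec_add]
        abel
      unfold QuadraticMap.polar
      rw [hcon _ (J_P J hJJ v), hcon _ (J_P J hJJ w), h5, hcon _ (J_P J hJJ (v + w))]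
      ring
    have h3 : QuadraticMap.polar ⇑Q (v + J *ᵥ v) (J *ᵥ w) =
        QuadraticMap.polar ⇑Q (v + J *ᵥ v) w := by
      conv_lhs => rw [← J_P J hJJ v]
      exact polar_J Q J hJ _ _
    rw [QuadraticMap.polar_add_right, h3] at h1
    rw [QuadraticMap.polar_comm]
    have h4 : (2 : K) * QuadraticMap.polar ⇑Q (v + J *ᵥ v) w = 0 := by
      rw [two_mul]
      exact h1
    exact (mul_eq_zero.mp h4).resolve_left h2
  apply Matrix.mulVec_injective
  funext v
  rw [Matrix.neg_mulVec, Matrix.one_mulVec]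
  exact eq_neg_of_add_eq_zero_right (hP v)

/-- universality of the `1`-eigenspace, given an anisotropic vector `x` in it and a vector whose
projection is not a multiple of `x` -/
theorem univ_one [Fintype K] (h2 : (2 : K) ≠ 0)
    (hQ : ∀ x : ι → K, (∀ y, QuadraticMap.polar ⇑Q y x = 0) → x = 0)
    (hJJ : J * J = 1) (hJ : ∀ v, Q (J *ᵥ v) = Q v)
    (x v : ι → K) (hx : J *ᵥ x = x) (hQx : Q x ≠ 0) (hv : ∀ c : K, v + J *ᵥ v ≠ c • x) :
    ∀ t : K, t ≠ 0 → ∃ w : ι → K, J *ᵥ w = w ∧ Q w = t := by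
  have hBxx : QuadraticMap.polar ⇑Q x x ≠ 0 := by
    rw [QuadraticMap.polar_self, nsmul_eq_mul, Nat.cast_ofNat]
    exact mul_ne_zero h2 hQx
  obtain ⟨R, hRdef⟩ : ∃ R : (ι → K) → (ι → K), ∀ u, R u = (u + J *ᵥ u) -
      (QuadraticMap.polar ⇑Q (u + J *ᵥ u) x / QuadraticMap.polar ⇑Q x x) • x :=
    ⟨_, fun _ => rfl⟩
  have hRJ : ∀ u, J *ᵥ R u = R u := by
    intro u
    rw [hRdef, Matrix.mulVec_sub, Matrix.mulVec_smul, hx, J_P J hJJ]
  have hRx : ∀ u, QuadraticMap.polar ⇑Q (R u) x = 0 := by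
    intro u
    rw [hRdef, QuadraticMap.polar_sub_left, QuadraticMap.polar_smul_left, smul_eq_mul,
      div_mul_cancel₀ _ hBxx, sub_self]
  have hy0ne : R v ≠ 0 := by
    intro h0
    rw [hRdef, sub_eq_zero] at h0
    exact hv _ h0
  have hpair : ∃ y : ι → K, J *ᵥ y = y ∧ Q y ≠ 0 ∧ QuadraticMap.polar ⇑Q x y = 0 := by
    by_cases hQy0 : Q (R v) = 0
    · obtain ⟨w, hw⟩ : ∃ w, QuadraticMap.polar ⇑Q w (R v) ≠ 0 := by
        by_contra hcon
        push Not at hcon
        exact hy0ne (hQ _ hcon)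
      have hB : QuadraticMap.polar ⇑Q (R v) (R w) = 2 * QuadraticMap.polar ⇑Q (R v) w := by
        have h3 : QuadraticMap.polar ⇑Q (R v) (J *ᵥ w) = QuadraticMap.polar ⇑Q (R v) w := by
          conv_lhs => rw [← hRJ v]
          exact polar_J Q J hJ _ _
        rw [hRdef w, QuadraticMap.polar_sub_right, QuadraticMap.polar_smul_right,
          QuadraticMap.polar_add_right, h3, hRx v, smul_zero, sub_zero, two_mul]
      have hB0 : QuadraticMap.polar ⇑Q (R v) (R w) ≠ 0 := by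
        rw [hB, QuadraticMap.polar_comm]
        exact mul_ne_zero h2 hw
      by_cases hQw' : Q (R w) = 0
      · refine ⟨R v + R w, ?_, ?_, ?_⟩
        · rw [Matrix.mulVec_add, hRJ, hRJ]
        · rw [QuadraticMap.map_add Q (R v) (R w), hQy0, hQw', zero_add, zero_add]
          exact hB0
        · rw [QuadraticMap.polar_add_right, QuadraticMap.polar_comm, hRx,
            QuadraticMap.polar_comm, hRx, add_zero]
      · exact ⟨R w, hRJ w, hQw', by rw [QuadraticMap.polar_comm, hRx]⟩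
    · exact ⟨R v, hRJ v, hQy0, by rw [QuadraticMap.polar_comm, hRx]⟩
  intro t ht
  obtain ⟨y, hyJ, hQy, hxy⟩ := hpair
  have hchar : ringChar K ≠ 2 := by
    intro h
    apply h2
    have h3 := CharP.cast_eq_zero K (ringChar K)
    rw [h] at h3
    exact_mod_cast h3
  have hf : (Polynomial.C (Q x) * Polynomial.X ^ 2 : Polynomial K).degree = 2 := by
    rw [Polynomial.degree_C_mul_X_pow 2 hQx]
    rfl
  have hg : (Polynomial.C (Q y) * Polynomial.X ^ 2 - Polynomial.C t : Polynomial K).degree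
      = 2 := by
    have h3 : (Polynomial.C (Q y) * Polynomial.X ^ 2 : Polynomial K).degree = 2 := by
      rw [Polynomial.degree_C_mul_X_pow 2 hQy]
      rfl
    rw [Polynomial.degree_sub_C (by rw [h3]; decide), h3]
  obtain ⟨a, b, hab⟩ := FiniteField.exists_root_sum_quadratic hf hg
    (FiniteField.odd_card_of_char_ne_two hchar)
  simp only [Polynomial.eval_mul, Polynomial.eval_C, Polynomial.eval_pow, Polynomial.eval_X,
    Polynomial.eval_sub] at hab
  refine ⟨a • x + b • y, ?_, ?_⟩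
  · rw [Matrix.mulVec_add, Matrix.mulVec_smul, Matrix.mulVec_smul, hx, hyJ]
  · rw [QuadraticMap.map_add Q (a • x) (b • y), QuadraticMap.map_smul, QuadraticMap.map_smul,
      QuadraticMap.polar_smul_left, QuadraticMap.polar_smul_right, hxy]
    simp only [smul_eq_mul]
    linear_combination hab

end

theorem univ_eigen {K : Type*} [Field K] [Fintype K] (h2 : (2 : K) ≠ 0)
    {ι : Type} [Fintype ι] [DecidableEq ι] (Q : QuadraticForm K (ι → K))
    (hQ : ∀ x : ι → K, (∀ y, QuadraticMap.polar ⇑Q y x = 0) → x = 0)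
    (hcard : 3 ≤ Fintype.card ι) (J : Matrix ι ι K) (hJJ : J * J = 1)
    (hJ : ∀ v, Q (J *ᵥ v) = Q v) (hJ1 : J ≠ 1) (hJ2 : J ≠ -1) :
    ∃ ε : K, (ε = 1 ∨ ε = -1) ∧ ∀ t : K, t ≠ 0 → ∃ w : ι → K, J *ᵥ w = ε • w ∧ Q w = t := by
  classical
  have hnJJ : (-J) * (-J) = 1 := by rw [neg_mul_neg, hJJ]
  have hnJ : ∀ v, Q ((-J) *ᵥ v) = Q v := by
    intro v
    rw [Matrix.neg_mulVec, QuadraticMap.map_neg, hJ]
  have hnJ2 : -J ≠ -1 := fun h => hJ1 (neg_injective h)
  obtain ⟨xp, hxp, hQxp⟩ := exists_aniso Q J h2 hQ hJJ hJ hJ2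
  obtain ⟨xm, hxm, hQxm⟩ := exists_aniso Q (-J) h2 hQ hnJJ hnJ hnJ2
  obtain ⟨v, hv⟩ : ∃ v : ι → K, v ∉ Submodule.span K ({xp, xm} : Set (ι → K)) := by
    by_contra hcon
    push Not at hcon
    have htop : Submodule.span K ({xp, xm} : Set (ι → K)) = ⊤ := by
      rw [eq_top_iff]
      intro v _
      exact hcon v
    have h1 : Module.finrank K (Submodule.span K ((({xp, xm} : Finset (ι → K)) :
        Set (ι → K)))) ≤ ({xp, xm} : Finset (ι → K)).card := finrank_span_finset_le_card _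
    rw [Finset.coe_insert, Finset.coe_singleton, htop, finrank_top,
      Module.finrank_fintype_fun_eq_card] at h1
    have h3 : ({xp, xm} : Finset (ι → K)).card ≤ 2 := Finset.card_le_two
    omega
  by_cases hcase : ∀ c : K, v + J *ᵥ v ≠ c • xp
  · refine ⟨1, Or.inl rfl, fun t ht => ?_⟩
    obtain ⟨w, hw, hQw⟩ := univ_one Q J h2 hQ hJJ hJ xp v hxp hQxp hcase t ht
    exact ⟨w, by rw [hw, one_smul], hQw⟩
  · push Not at hcase
    obtain ⟨c, hc⟩ := hcase
    have hcase2 : ∀ d : K, v + (-J) *ᵥ v ≠ d • xm := by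
      intro d hd
      apply hv
      rw [Submodule.mem_span_pair]
      refine ⟨c / 2, d / 2, ?_⟩
      have h3 : (2 : K) • v = c • xp + d • xm := by
        rw [← hc, ← hd, Matrix.neg_mulVec, two_smul]
        abel
      rw [div_eq_inv_mul, div_eq_inv_mul, ← smul_smul, ← smul_smul, ← smul_add, ← h3, smul_smul,
        inv_mul_cancel₀ h2, one_smul]
    refine ⟨-1, Or.inr rfl, fun t ht => ?_⟩
    obtain ⟨w, hw, hQw⟩ := univ_one Q (-J) h2 hQ hnJJ hnJ xm v hxm hQxm hcase2 t ht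
    refine ⟨w, ?_, hQw⟩
    rw [Matrix.neg_mulVec] at hw
    rw [neg_smul, one_smul]
    exact neg_eq_iff_eq_neg.mp hw

end Cfsg.Agent.Lib.Helper8.GGUNIV
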