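import Mathlib
import Cfsg.Prelude.Def_GeometricClasses
import Cfsg.Prelude.Def_LieClassical

set_option autoImplicit false

/-! Project OMP (helper71), piece O5: in odd dimension an absolutely irreducible group of
isometries of a non-degenerate quadratic form is not of symplectic type. -/

namespace Cfsg.Agent.Lib.Helper8.OMPO5

open Matrix Cfsg.Geo

open scoped commutatorElement

variable {n : ℕ} {F : Type*} [Field F] [Fintype F]

/-- O5: in odd dimension an absolutely irreducible group of isometries is not of symplectic type. -/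
theorem O5 (Q : (Fin n → F) → F) (hQ : IsNondegenerateQuadraticForm Q) (hn : 2 ≤ n)
    (hodd : Odd n) (L : Subgroup (GL (Fin n) F))
    (hLa : ActsAbsolutelyIrreducibly (matrixSet L)) (hfix : FixesQuadForm (matrixSet L) Q)
    (hc : ⁅L, L⁆ ≤ scalars (Fin n) F) : False := by
  classical
  -- `L` is not abelian
  have hnab : ∃ x ∈ L, ∃ y ∈ L, x * y ≠ y * x := by
    by_contra hab
    push Not at hab
    have hsc : ∀ g ∈ L, ∃ c : F,
        (g : Matrix (Fin n) (Fin n) F) = c • (1 : Matrix (Fin n) (Fin n) F) := by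
      intro g hg
      apply hLa.2
      rintro _ ⟨s, hs, rfl⟩
      have h := hab g hg s hs
      exact congrArg (fun u : GL (Fin n) F => (u : Matrix (Fin n) (Fin n) F)) h
    set W : Submodule F (Fin n → F) :=
      Submodule.span F {Pi.single (⟨0, by omega⟩ : Fin n) (1 : F)} with hW
    have hinv : ∀ s ∈ matrixSet L, W.map (Matrix.toLin' s) ≤ W := by
      rintro _ ⟨g, hg, rfl⟩ w hw
      obtain ⟨u, hu, rfl⟩ := Submodule.mem_map.mp hw
      obtain ⟨c, hc'⟩ := hsc g hg
      show Matrix.toLin' g.1 u ∈ W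
      rw [Matrix.toLin'_apply, hc', Matrix.smul_mulVec, Matrix.one_mulVec]
      exact W.smul_mem _ hu
    rcases hLa.1 W hinv with h0 | h1
    · have hmem : Pi.single (⟨0, by omega⟩ : Fin n) (1 : F) ∈ W :=
        Submodule.mem_span_singleton_self _
      rw [h0, Submodule.mem_bot] at hmem
      have h3 := congrFun hmem ⟨0, by omega⟩
      simp at h3
    · have hmem : Pi.single (⟨1, by omega⟩ : Fin n) (1 : F) ∈ W := by rw [h1]; trivial
      obtain ⟨c, hc'⟩ := Submodule.mem_span_singleton.mp hmem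
      have h3 := congrFun hc' ⟨1, by omega⟩
      have hne : (⟨1, by omega⟩ : Fin n) ≠ ⟨0, by omega⟩ := by
        intro h; simpa using congrArg Fin.val h
      simp [hne] at h3
  obtain ⟨x, hx, y, hy, hxy⟩ := hnab
  have hcL : ⁅x, y⁆ ∈ ⁅L, L⁆ := Subgroup.commutator_mem_commutator hx hy
  have hcmem : ⁅x, y⁆ ∈ L := by
    rw [commutatorElement_def]
    exact L.mul_mem (L.mul_mem (L.mul_mem hx hy) (L.inv_mem hx)) (L.inv_mem hy)
  obtain ⟨ζ, hζ⟩ := (mem_scalars_iff _).mp (hc hcL)
  -- `ζ ^ n = 1`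
  have hζn : (ζ : F) ^ n = 1 := by
    have h1 : (Matrix.GeneralLinearGroup.det ⁅x, y⁆ : Fˣ) = 1 := by
      rw [map_commutatorElement]
      exact commutatorElement_eq_one_iff_mul_comm.mpr (mul_comm _ _)
    have h2 : ((⁅x, y⁆ : GL (Fin n) F) : Matrix (Fin n) (Fin n) F).det = 1 := by
      rw [← Matrix.GeneralLinearGroup.val_det_apply, h1]
      rfl
    rw [hζ, Matrix.det_smul, Matrix.det_one, mul_one, Fintype.card_fin] at h2
    exact h2
  -- `ζ ^ 2 = 1`
  have hQne : ∃ v, Q v ≠ 0 := by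
    by_contra hall
    push Not at hall
    have hv0 : (Pi.single (⟨0, by omega⟩ : Fin n) (1 : F) : Fin n → F) ≠ 0 := by
      intro h
      have h3 := congrFun h ⟨0, by omega⟩
      simp at h3
    obtain ⟨⟨w, hw⟩, -⟩ := hQ.nondegenerate _ hv0
    apply hw
    simp [QuadraticMap.polar, hall]
  obtain ⟨v, hv⟩ := hQne
  have hζ2 : (ζ : F) ^ 2 = 1 := by
    have h1 : Q (((⁅x, y⁆ : GL (Fin n) F) : Matrix (Fin n) (Fin n) F) *ᵥ v) = Q v :=
      hfix _ ⟨⁅x, y⁆, hcmem, rfl⟩ v
    rw [hζ, Matrix.smul_mulVec, Matrix.one_mulVec, hQ.smul] at h1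
    exact mul_right_cancel₀ hv (by rw [one_mul]; exact h1)
  obtain ⟨k, hk⟩ := hodd
  have hζ1 : (ζ : F) = 1 := by
    have h := hζn
    rw [hk, pow_succ, pow_mul, hζ2, one_pow, one_mul] at h
    exact h
  apply hxy
  apply commutatorElement_eq_one_iff_mul_comm.mp
  apply Units.ext
  rw [hζ, hζ1, one_smul]
  rfl

end Cfsg.Agent.Lib.Helper8.OMPO5
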