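import Mathlib
import Cfsg.Prelude.Def_GeometricClasses
import Cfsg.Prelude.Def_LieClassical

/-! Project O9 (helper44, S5835), piece MON3: over the field with three elements a non-degenerate
symmetric form on `F³` has an orthogonal basis of constant norm `ε`, and the vectors of norm `ε`
are exactly the `± w j`. -/

set_option autoImplicit false

namespace Cfsg.Agent.Lib.Helper44.O9

open Matrix Cfsg.Geo

variable {n : ℕ} {F : Type*} [Field F] [Fintype F]

theorem MON3_three (hq : Fintype.card F = 3) : (3 : F) = 0 := by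
  have h := FiniteField.cast_card_eq_zero F
  rw [hq] at h
  exact_mod_cast h

theorem MON3_trich (hq : Fintype.card F = 3) (x : F) : x = 0 ∨ x = 1 ∨ x = -1 := by
  have h := FiniteField.pow_card x
  rw [hq] at h
  have h' : x * ((x - 1) * (x + 1)) = 0 := by linear_combination h
  rcases mul_eq_zero.mp h' with h0 | h0
  · exact Or.inl h0
  · rcases mul_eq_zero.mp h0 with h1 | h1
    · exact Or.inr (Or.inl (sub_eq_zero.mp h1))
    · exact Or.inr (Or.inr (eq_neg_of_add_eq_zero_left h1))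

theorem MON3_two_ne (hq : Fintype.card F = 3) : (1 : F) + 1 ≠ 0 := by
  intro h
  have h3 := MON3_three hq
  have : (1 : F) = 0 := by linear_combination h3 - h
  exact one_ne_zero this

/-- Three pairwise orthogonal vectors of the same non-zero norm. -/
theorem MON3_fin (hq : Fintype.card F = 3) (f₁ : (Fin 3 → F) → (Fin 3 → F) → F)
    (hf₁ : IsSymmetricForm f₁) (w0 w1 w2 : Fin 3 → F) (ε : F) (hε : ε ≠ 0)
    (h00 : f₁ w0 w0 = ε) (h11 : f₁ w1 w1 = ε) (h22 : f₁ w2 w2 = ε)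
    (h01 : f₁ w0 w1 = 0) (h02 : f₁ w0 w2 = 0) (h12 : f₁ w1 w2 = 0) :
    ∃ (w : Fin 3 → Fin 3 → F) (ε : F), ε ≠ 0 ∧ (∀ j, f₁ (w j) (w j) = ε) ∧
      (∀ j k, j ≠ k → f₁ (w j) (w k) = 0) ∧
      ∀ x : Fin 3 → F, f₁ x x = ε → ∃ j, x = w j ∨ x = - w j := by
  have hb := hf₁.bilinear
  have h10 : f₁ w1 w0 = 0 := by rw [hf₁.symm]; exact h01
  have h20 : f₁ w2 w0 = 0 := by rw [hf₁.symm]; exact h02
  have h21 : f₁ w2 w1 = 0 := by rw [hf₁.symm]; exact h12
  let T : (Fin 3 → F) → (Fin 3 → F) := fun c => c 0 • w0 + c 1 • w1 + c 2 • w2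
  have hT0 : ∀ c, f₁ (T c) w0 = ε * c 0 := by
    intro c
    simp only [T, hb.add_left, hb.smul_left, h00, h10, h20]
    ring
  have hT1 : ∀ c, f₁ (T c) w1 = ε * c 1 := by
    intro c
    simp only [T, hb.add_left, hb.smul_left, h01, h11, h21]
    ring
  have hT2 : ∀ c, f₁ (T c) w2 = ε * c 2 := by
    intro c
    simp only [T, hb.add_left, hb.smul_left, h02, h12, h22]
    ring
  have hTT : ∀ c, f₁ (T c) (T c) = ε * (c 0 ^ 2 + c 1 ^ 2 + c 2 ^ 2) := by
    intro c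
    have e : f₁ (T c) (T c) = c 0 * f₁ (T c) w0 + c 1 * f₁ (T c) w1 + c 2 * f₁ (T c) w2 := by
      show f₁ (T c) (c 0 • w0 + c 1 • w1 + c 2 • w2) = _
      rw [hb.add_right, hb.add_right, hb.smul_right, hb.smul_right, hb.smul_right]
    rw [e, hT0, hT1, hT2]
    ring
  have hinj : Function.Injective T := by
    intro c c' hcc
    funext j
    have e0 := hT0 c
    have e1 := hT1 c
    have e2 := hT2 c
    rw [hcc, hT0] at e0
    rw [hcc, hT1] at e1
    rw [hcc, hT2] at e2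
    fin_cases j
    · exact (mul_left_cancel₀ hε e0).symm
    · exact (mul_left_cancel₀ hε e1).symm
    · exact (mul_left_cancel₀ hε e2).symm
  have hsurj : Function.Surjective T := Finite.injective_iff_surjective.mp hinj
  have h1 : (1 : F) ≠ 0 := one_ne_zero
  have h2 := MON3_two_ne hq
  have hsq : ∀ y : F, (y ^ 2 = 0 ∧ y = 0) ∨ (y ^ 2 = 1 ∧ (y = 1 ∨ y = -1)) := by
    intro y
    rcases MON3_trich hq y with h | h | h
    · left
      exact ⟨by rw [h]; ring, h⟩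
    · right
      exact ⟨by rw [h]; ring, Or.inl h⟩
    · right
      exact ⟨by rw [h]; ring, Or.inr h⟩
  refine ⟨![w0, w1, w2], ε, hε, ?_, ?_, ?_⟩
  · intro j
    fin_cases j
    · exact h00
    · exact h11
    · exact h22
  · intro j k hjk
    fin_cases j <;> fin_cases k
    · exact absurd rfl hjk
    · exact h01
    · exact h02
    · exact h10
    · exact absurd rfl hjk
    · exact h12
    · exact h20
    · exact h21
    · exact absurd rfl hjk
  · intro x hx
    obtain ⟨c, rfl⟩ := hsurj x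
    rw [hTT] at hx
    have hsum : c 0 ^ 2 + c 1 ^ 2 + c 2 ^ 2 = 1 := by
      have : ε * (c 0 ^ 2 + c 1 ^ 2 + c 2 ^ 2) = ε * 1 := by rw [hx, mul_one]
      exact mul_left_cancel₀ hε this
    rcases hsq (c 0) with ⟨q0, z0⟩ | ⟨q0, z0⟩ <;> rcases hsq (c 1) with ⟨q1, z1⟩ | ⟨q1, z1⟩ <;>
      rcases hsq (c 2) with ⟨q2, z2⟩ | ⟨q2, z2⟩ <;> rw [q0, q1, q2] at hsum
    · exfalso
      apply h1
      linear_combination -hsum
    · refine ⟨2, ?_⟩
      show T c = w2 ∨ T c = -w2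
      simp only [T, z0, z1, zero_smul, zero_add]
      rcases z2 with z2 | z2
      · left
        rw [z2, one_smul]
      · right
        rw [z2, neg_smul, one_smul]
    · refine ⟨1, ?_⟩
      show T c = w1 ∨ T c = -w1
      simp only [T, z0, z2, zero_smul, zero_add, add_zero]
      rcases z1 with z1 | z1
      · left
        rw [z1, one_smul]
      · right
        rw [z1, neg_smul, one_smul]
    · exfalso
      apply h1
      linear_combination hsum
    · refine ⟨0, ?_⟩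
      show T c = w0 ∨ T c = -w0
      simp only [T, z1, z2, zero_smul, add_zero]
      rcases z0 with z0 | z0
      · left
        rw [z0, one_smul]
      · right
        rw [z0, neg_smul, one_smul]
    · exfalso
      apply h1
      linear_combination hsum
    · exfalso
      apply h1
      linear_combination hsum
    · exfalso
      apply h2
      linear_combination hsum

/-- Norms `a, a, -a`: pass to `u2, u0 + u1, u0 - u1`, all of norm `-a`. -/
theorem MON3_mix (hq : Fintype.card F = 3) (f₁ : (Fin 3 → F) → (Fin 3 → F) → F)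
    (hf₁ : IsSymmetricForm f₁) (u0 u1 u2 : Fin 3 → F) (a : F) (ha : a ≠ 0)
    (h00 : f₁ u0 u0 = a) (h11 : f₁ u1 u1 = a) (h22 : f₁ u2 u2 = -a)
    (h01 : f₁ u0 u1 = 0) (h02 : f₁ u0 u2 = 0) (h12 : f₁ u1 u2 = 0) :
    ∃ (w : Fin 3 → Fin 3 → F) (ε : F), ε ≠ 0 ∧ (∀ j, f₁ (w j) (w j) = ε) ∧
      (∀ j k, j ≠ k → f₁ (w j) (w k) = 0) ∧
      ∀ x : Fin 3 → F, f₁ x x = ε → ∃ j, x = w j ∨ x = - w j := by
  have hb := hf₁.bilinear
  have h3 := MON3_three hq
  have h10 : f₁ u1 u0 = 0 := by rw [hf₁.symm]; exact h01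
  have h20 : f₁ u2 u0 = 0 := by rw [hf₁.symm]; exact h02
  have h21 : f₁ u2 u1 = 0 := by rw [hf₁.symm]; exact h12
  refine MON3_fin hq f₁ hf₁ u2 (u0 + u1) (u0 + (-1 : F) • u1) (-a) (neg_ne_zero.mpr ha) h22 ?_ ?_
    ?_ ?_ ?_
  · simp only [hb.add_left, hb.add_right, h00, h01, h10, h11]
    linear_combination a * h3
  · simp only [hb.add_left, hb.add_right, hb.smul_left, hb.smul_right, h00, h01, h10, h11]
    linear_combination a * h3
  · simp only [hb.add_right, h20, h21]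
    ring
  · simp only [hb.add_right, hb.smul_right, h20, h21]
    ring
  · simp only [hb.add_left, hb.add_right, hb.smul_right, h00, h01, h10, h11]
    ring

/-- Three pairwise orthogonal vectors with norms in `{1, -1}`. -/
theorem MON3_pm (hq : Fintype.card F = 3) (f₁ : (Fin 3 → F) → (Fin 3 → F) → F)
    (hf₁ : IsSymmetricForm f₁) (u0 u1 u2 : Fin 3 → F)
    (h0 : f₁ u0 u0 = 1 ∨ f₁ u0 u0 = -1) (h1 : f₁ u1 u1 = 1 ∨ f₁ u1 u1 = -1)
    (h2 : f₁ u2 u2 = 1 ∨ f₁ u2 u2 = -1)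
    (h01 : f₁ u0 u1 = 0) (h02 : f₁ u0 u2 = 0) (h12 : f₁ u1 u2 = 0) :
    ∃ (w : Fin 3 → Fin 3 → F) (ε : F), ε ≠ 0 ∧ (∀ j, f₁ (w j) (w j) = ε) ∧
      (∀ j k, j ≠ k → f₁ (w j) (w k) = 0) ∧
      ∀ x : Fin 3 → F, f₁ x x = ε → ∃ j, x = w j ∨ x = - w j := by
  have h10 : f₁ u1 u0 = 0 := by rw [hf₁.symm]; exact h01
  have h20 : f₁ u2 u0 = 0 := by rw [hf₁.symm]; exact h02
  have h21 : f₁ u2 u1 = 0 := by rw [hf₁.symm]; exact h12
  have e1 : (1 : F) ≠ 0 := one_ne_zero
  have e2 : (-1 : F) ≠ 0 := neg_ne_zero.mpr one_ne_zero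
  have e3 : (1 : F) = - (-1) := (neg_neg 1).symm
  rcases h0 with h0 | h0 <;> rcases h1 with h1 | h1 <;> rcases h2 with h2 | h2
  · exact MON3_fin hq f₁ hf₁ u0 u1 u2 1 e1 h0 h1 h2 h01 h02 h12
  · exact MON3_mix hq f₁ hf₁ u0 u1 u2 1 e1 h0 h1 h2 h01 h02 h12
  · exact MON3_mix hq f₁ hf₁ u0 u2 u1 1 e1 h0 h2 h1 h02 h01 h21
  · exact MON3_mix hq f₁ hf₁ u1 u2 u0 (-1) e2 h1 h2 (by rw [h0]; exact e3) h12 h10 h20
  · exact MON3_mix hq f₁ hf₁ u1 u2 u0 1 e1 h1 h2 h0 h12 h10 h20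
  · exact MON3_mix hq f₁ hf₁ u0 u2 u1 (-1) e2 h0 h2 (by rw [h1]; exact e3) h02 h01 h21
  · exact MON3_mix hq f₁ hf₁ u0 u1 u2 (-1) e2 h0 h1 (by rw [h2]; exact e3) h01 h02 h12
  · exact MON3_fin hq f₁ hf₁ u0 u1 u2 (-1) e2 h0 h1 h2 h01 h02 h12

theorem MON3 (hq : Fintype.card F = 3) (f₁ : (Fin 3 → F) → (Fin 3 → F) → F)
    (hf₁ : IsSymmetricForm f₁) :
    ∃ (w : Fin 3 → Fin 3 → F) (ε : F), ε ≠ 0 ∧ (∀ j, f₁ (w j) (w j) = ε) ∧
      (∀ j k, j ≠ k → f₁ (w j) (w k) = 0) ∧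
      ∀ x : Fin 3 → F, f₁ x x = ε → ∃ j, x = w j ∨ x = - w j := by
  classical
  have hb := hf₁.bilinear
  let B : LinearMap.BilinForm F (Fin 3 → F) :=
    LinearMap.mk₂ F f₁ hb.add_left hb.smul_left hb.add_right hb.smul_right
  have hB : ∀ x y, B x y = f₁ x y := fun x y => rfl
  have hsymm : B.IsSymm := ⟨fun x y => by rw [hB, hB]; exact hf₁.symm x y⟩
  have h2 : (2 : F) ≠ 0 := by
    have := MON3_two_ne hq
    intro h
    apply this
    linear_combination h
  have hinv2 : Invertible (2 : F) := invertibleOfNonzero h2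
  obtain ⟨v, hv⟩ := LinearMap.BilinForm.exists_orthogonal_basis
    (LinearMap.BilinForm.isSymm_iff.mp hsymm)
  have hsep : B.SeparatingLeft := by
    intro x hx
    by_contra hne
    obtain ⟨y, hy⟩ := (hf₁.nondegenerate x hne).2
    exact hy (hx y)
  have hne : ∀ i, B (v i) (v i) ≠ 0 :=
    fun i => LinearMap.IsOrthoᵢ.not_isOrtho_basis_self_of_separatingLeft hv hsep i
  have h3 : Module.finrank F (Fin 3 → F) = 3 := Module.finrank_fin_fun F
  let e : Fin 3 ≃ Fin (Module.finrank F (Fin 3 → F)) := finCongr h3.symm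
  have hpm : ∀ i, f₁ (v i) (v i) = 1 ∨ f₁ (v i) (v i) = -1 := by
    intro i
    rcases MON3_trich hq (f₁ (v i) (v i)) with h | h | h
    · exact absurd h (hne i)
    · exact Or.inl h
    · exact Or.inr h
  have hort : ∀ i j : Fin 3, i ≠ j → f₁ (v (e i)) (v (e j)) = 0 := by
    intro i j hij
    exact hv (fun h => hij (e.injective h))
  exact MON3_pm hq f₁ hf₁ (v (e 0)) (v (e 1)) (v (e 2)) (hpm _) (hpm _) (hpm _)
    (hort 0 1 (by decide)) (hort 0 2 (by decide)) (hort 1 2 (by decide))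

end Cfsg.Agent.Lib.Helper44.O9
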