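import Mathlib

set_option autoImplicit false

open Matrix

namespace Cfsg.Agent.Lib.Helper8.MinIdx

/-- a linear functional on `Fin k → F` is a dot product -/
theorem lt2_functional {F : Type*} [Field F] (k : ℕ) (f : (Fin k → F) →ₗ[F] F) :
    ∃ ℓ : Fin k → F, ∀ x, f x = ℓ ⬝ᵥ x := by
  classical
  refine ⟨fun i => f (fun j => if i = j then 1 else 0), fun x => ?_⟩
  rw [LinearMap.pi_apply_eq_sum_univ f x, dotProduct]
  apply Finset.sum_congr rfl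
  intro i _
  rw [smul_eq_mul, mul_comm]

/-- a functional vanishing on `w` but not on `v`, when `v` is not a multiple of `w` -/
theorem lt2_sep {F : Type*} [Field F] (k : ℕ) (w v : Fin k → F) (h : ∀ c : F, v ≠ c • w) :
    ∃ ℓ : Fin k → F, ℓ ⬝ᵥ w = 0 ∧ ℓ ⬝ᵥ v ≠ 0 := by
  have hv : v ∉ Submodule.span F {w} := by
    intro hv
    obtain ⟨c, hc⟩ := Submodule.mem_span_singleton.1 hv
    exact h c hc.symm
  obtain ⟨f, hf1, hf2⟩ := Submodule.exists_dual_map_eq_bot_of_notMem hv inferInstance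
  obtain ⟨ℓ, hℓ⟩ := lt2_functional k f
  refine ⟨ℓ, ?_, ?_⟩
  · rw [← hℓ]
    have h1 : f w ∈ (Submodule.span F {w}).map f :=
      Submodule.mem_map_of_mem (Submodule.mem_span_singleton_self w)
    rw [hf2] at h1
    exact (Submodule.mem_bot F).1 h1
  · rw [← hℓ]; exact hf1

/-- the transvection `1 + y ℓᵀ` -/
theorem lt2_transv {F : Type*} [Field F] (k : ℕ) (y ℓ : Fin k → F) (h : ℓ ⬝ᵥ y = 0) :
    ∃ B : Matrix.SpecialLinearGroup (Fin k) F,
      ∀ x, (B : Matrix (Fin k) (Fin k) F) *ᵥ x = x + (ℓ ⬝ᵥ x) • y := by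
  have hdet : (1 + vecMulVec y ℓ : Matrix (Fin k) (Fin k) F).det = 1 := by
    rw [vecMulVec_eq (ι := Unit), det_one_add_replicateCol_mul_replicateRow, h, add_zero]
  refine ⟨⟨1 + vecMulVec y ℓ, hdet⟩, fun x => ?_⟩
  change (1 + vecMulVec y ℓ : Matrix (Fin k) (Fin k) F) *ᵥ x = _
  rw [add_mulVec, one_mulVec, vecMulVec_mulVec, op_smul_eq_smul]

/-- LT2 -/
theorem line_or_top {F : Type*} [Field F] (k : ℕ) (P : AddSubgroup (Fin k → F))
    (hP : ∀ v ∈ P, v ≠ 0 → ∀ B : Matrix.SpecialLinearGroup (Fin k) F,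
      (B : Matrix (Fin k) (Fin k) F) *ᵥ v = v → ∀ x ∈ P, (B : Matrix (Fin k) (Fin k) F) *ᵥ x ∈ P)
    (w : Fin k → F) (hw : w ∈ P) (hw0 : w ≠ 0) :
    (∀ x ∈ P, ∃ c : F, x = c • w) ∨ P = ⊤ := by
  by_cases hall : ∀ x ∈ P, ∃ c : F, x = c • w
  · exact Or.inl hall
  · right
    push_neg at hall
    obtain ⟨v, hv, hvw⟩ := hall
    have hv0 : v ≠ 0 := by
      intro h
      exact hvw 0 (by rw [h, zero_smul])
    -- key claim
    have claim : ∀ (a x : Fin k → F), a ∈ P → a ≠ 0 → x ∈ P → ∀ ℓ : Fin k → F,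
        ℓ ⬝ᵥ a = 0 → ℓ ⬝ᵥ x ≠ 0 → ∀ y : Fin k → F, ℓ ⬝ᵥ y = 0 → y ∈ P := by
      intro a x ha ha0 hx ℓ hℓa hℓx y hℓy
      obtain ⟨B, hB⟩ := lt2_transv k ((ℓ ⬝ᵥ x)⁻¹ • y) ℓ (by rw [dotProduct_smul, hℓy, smul_zero])
      have h1 : (B : Matrix (Fin k) (Fin k) F) *ᵥ a = a := by
        rw [hB, hℓa, zero_smul, add_zero]
      have h2 := hP a ha ha0 B h1 x hx
      rw [hB, smul_smul, mul_inv_cancel₀ hℓx, one_smul] at h2
      have h3 := P.sub_mem h2 hx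
      rwa [add_sub_cancel_left] at h3
    obtain ⟨ℓ1, h11, h12⟩ := lt2_sep k w v hvw
    have hwv : ∀ c : F, w ≠ c • v := by
      intro c hc
      have hc0 : c ≠ 0 := by
        intro h0
        rw [h0, zero_smul] at hc
        exact hw0 hc
      apply hvw c⁻¹
      rw [hc, smul_smul, inv_mul_cancel₀ hc0, one_smul]
    obtain ⟨ℓ2, h21, h22⟩ := lt2_sep k v w hwv
    rw [eq_top_iff]
    intro y _
    -- y = (y - c w) + c w with c = (ℓ2·y)/(ℓ2·w)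
    have e : y = (y - ((ℓ2 ⬝ᵥ y) / (ℓ2 ⬝ᵥ w)) • w) + ((ℓ2 ⬝ᵥ y) / (ℓ2 ⬝ᵥ w)) • w := by
      rw [sub_add_cancel]
    rw [e]
    apply P.add_mem
    · apply claim v w hv hv0 hw ℓ2 h21 h22
      rw [dotProduct_sub, dotProduct_smul, smul_eq_mul, div_mul_cancel₀ _ h22, sub_self]
    · apply claim w v hw hw0 hv ℓ1 h11 h12
      rw [dotProduct_smul, h11, smul_zero]

end Cfsg.Agent.Lib.Helper8.MinIdx
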