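import Mathlib

set_option autoImplicit false

open Matrix

namespace Cfsg.Agent.Lib.Helper8.MinIdx

/-- LT1: perfect pairing count. -/
theorem perp_card {F : Type*} [Field F] [Fintype F] (p : ℕ) [Fact p.Prime] [CharP F p]
    (τ : F →+ ZMod p) (hτ : τ ≠ 0) (k : ℕ) (W : AddSubgroup (Fin k → F)) :
    Nat.card {w : Fin k → F // ∀ x ∈ W, τ (w ⬝ᵥ x) = 0} = W.index := by
  classical
  letI : Algebra (ZMod p) F := ZMod.algebra F p
  let τ' : F →ₗ[ZMod p] ZMod p := AddMonoidHom.toZModLinearMap p τ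
  have hτ' : ∀ (c : ZMod p) (z : F), τ (c • z) = c • τ z := fun c z => map_smul τ' c z
  let B : LinearMap.BilinForm (ZMod p) (Fin k → F) :=
    LinearMap.mk₂ (ZMod p) (fun w x => τ (w ⬝ᵥ x))
      (fun w1 w2 x => by rw [add_dotProduct, map_add])
      (fun c w x => by rw [smul_dotProduct, hτ'])
      (fun w x1 x2 => by rw [dotProduct_add, map_add])
      (fun c w x => by rw [dotProduct_smul, hτ'])
  have hBapp : ∀ w x, B w x = τ (w ⬝ᵥ x) := fun w x => rfl
  obtain ⟨c0, hc0⟩ : ∃ c, τ c ≠ 0 := by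
    by_contra h
    push_neg at h
    exact hτ (AddMonoidHom.ext (fun c => by rw [h c]; rfl))
  have hsepL : ∀ w : Fin k → F, (∀ x, τ (w ⬝ᵥ x) = 0) → w = 0 := by
    intro w hw
    by_contra hw0
    obtain ⟨i, hi⟩ : ∃ i, w i ≠ 0 := by
      by_contra h
      push_neg at h
      exact hw0 (funext h)
    have h1 := hw (Pi.single i (c0 / w i))
    rw [dotProduct_single, mul_div_cancel₀ _ hi] at h1
    exact hc0 h1
  have hB : B.Nondegenerate := by
    refine ⟨fun w hw => hsepL w (fun x => hw x), fun x hx => hsepL x (fun w => ?_)⟩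
    have := hx w
    rw [hBapp, dotProduct_comm] at this
    exact this
  set W' : Submodule (ZMod p) (Fin k → F) := AddSubgroup.toZModSubmodule p W with hW'
  have hmem : ∀ w : Fin k → F, w ∈ B.orthogonal W' ↔ ∀ x ∈ W, τ (w ⬝ᵥ x) = 0 := by
    intro w
    rw [LinearMap.BilinForm.mem_orthogonal_iff]
    constructor
    · intro h x hx
      have := h x hx
      rw [hBapp, dotProduct_comm] at this
      exact this
    · intro h x hx
      rw [hBapp, dotProduct_comm]
      exact h x hx
  have hcardS : Nat.card {w : Fin k → F // ∀ x ∈ W, τ (w ⬝ᵥ x) = 0}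
      = Nat.card ↥(B.orthogonal W') :=
    Nat.card_congr (Equiv.subtypeEquivRight (fun w => (hmem w).symm))
  have hcardW : Nat.card ↥W = Nat.card ↥W' := rfl
  have h1 : Nat.card ↥(B.orthogonal W') = p ^ Module.finrank (ZMod p) ↥(B.orthogonal W') := by
    rw [Module.natCard_eq_pow_finrank (K := ZMod p), Nat.card_zmod]
  have h2 : Nat.card ↥W' = p ^ Module.finrank (ZMod p) ↥W' := by
    rw [Module.natCard_eq_pow_finrank (K := ZMod p), Nat.card_zmod]
  have h3 : Nat.card (Fin k → F) = p ^ Module.finrank (ZMod p) (Fin k → F) := by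
    rw [Module.natCard_eq_pow_finrank (K := ZMod p), Nat.card_zmod]
  have h4 := LinearMap.BilinForm.finrank_orthogonal hB W'
  have h5 : Module.finrank (ZMod p) ↥W' ≤ Module.finrank (ZMod p) (Fin k → F) :=
    Submodule.finrank_le W'
  have h6 := AddSubgroup.index_mul_card W
  have h7 : Nat.card {w : Fin k → F // ∀ x ∈ W, τ (w ⬝ᵥ x) = 0} * Nat.card ↥W
      = Nat.card (Fin k → F) := by
    rw [hcardS, hcardW, h1, h2, h3, h4, ← pow_add]
    congr 1
    omega
  have hpos : 0 < Nat.card ↥W := Nat.card_pos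
  exact Nat.eq_of_mul_eq_mul_right hpos (h7.trans h6.symm)

end Cfsg.Agent.Lib.Helper8.MinIdx
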