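import Mathlib

set_option autoImplicit false

open Matrix

namespace Cfsg.Agent.Lib.Helper8.MinIdx

/-- AR: a free action of `F^k` on `G/H` with index `< 2 q^k` is transitive. -/
theorem exists_mem_of_free {G : Type*} [Group G] [Finite G] {F : Type*} [Field F] [Fintype F]
    (k : ℕ) (H : Subgroup G) (u : (Fin k → F) → G) (hu : ∀ x y, u (x + y) = u x * u y)
    (hfree : ∀ (g : G) (x : Fin k → F), g⁻¹ * u x * g ∈ H → x = 0)
    (hidx : H.index < 2 * Fintype.card F ^ k) :
    ∀ g : G, ∃ x : Fin k → F, (u x)⁻¹ * g ∈ H := by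
  classical
  intro g
  haveI : Fintype (G ⧸ H) := Fintype.ofFinite _
  have hu0 : u 0 = 1 := by
    have h := hu 0 0
    rw [add_zero] at h
    exact (mul_eq_left.1 h.symm)
  have huneg : ∀ x, u (-x) = (u x)⁻¹ := by
    intro x
    have h := hu (-x) x
    rw [neg_add_cancel, hu0] at h
    exact eq_inv_of_mul_eq_one_left h.symm
  have husub : ∀ x y, (u x)⁻¹ * u y = u (y - x) := by
    intro x y
    rw [sub_eq_neg_add, hu, huneg]
  have hinj : ∀ a : G, Function.Injective (fun x : Fin k → F => ((u x * a : G) : G ⧸ H)) := by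
    intro a x y hxy
    have h1 : (u x * a)⁻¹ * (u y * a) ∈ H := QuotientGroup.eq.1 hxy
    have e : (u x * a)⁻¹ * (u y * a) = a⁻¹ * u (y - x) * a := by
      rw [← husub]; group
    rw [e] at h1
    have h2 := hfree a (y - x) h1
    exact (sub_eq_zero.1 h2).symm
  by_contra hcon
  push_neg at hcon
  have hcardD : Fintype.card (Fin k → F) = Fintype.card F ^ k := by
    rw [Fintype.card_fun, Fintype.card_fin]
  have h1 : (Finset.univ.image (fun x : Fin k → F => ((u x * 1 : G) : G ⧸ H))).card
      = Fintype.card F ^ k := by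
    rw [Finset.card_image_of_injective _ (hinj 1), Finset.card_univ, hcardD]
  have h2 : (Finset.univ.image (fun x : Fin k → F => ((u x * g : G) : G ⧸ H))).card
      = Fintype.card F ^ k := by
    rw [Finset.card_image_of_injective _ (hinj g), Finset.card_univ, hcardD]
  have hdisj : Disjoint (Finset.univ.image (fun x : Fin k → F => ((u x * 1 : G) : G ⧸ H)))
      (Finset.univ.image (fun x : Fin k → F => ((u x * g : G) : G ⧸ H))) := by
    rw [Finset.disjoint_left]
    intro ω h3 h4
    rw [Finset.mem_image] at h3 h4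
    obtain ⟨x, _, hx⟩ := h3
    obtain ⟨y, _, hy⟩ := h4
    have h5 : ((u x * 1 : G) : G ⧸ H) = ((u y * g : G) : G ⧸ H) := by rw [hx, hy]
    have h6 : (u x * 1)⁻¹ * (u y * g) ∈ H := QuotientGroup.eq.1 h5
    apply hcon (x - y)
    have e : (u x * 1)⁻¹ * (u y * g) = (u (x - y))⁻¹ * g := by
      rw [← husub y x, mul_one]; group
    rw [← e]; exact h6
  have h7 := Finset.card_le_univ ((Finset.univ.image (fun x : Fin k → F => ((u x * 1 : G) : G ⧸ H)))
      ∪ (Finset.univ.image (fun x : Fin k → F => ((u x * g : G) : G ⧸ H))))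
  rw [Finset.card_union_of_disjoint hdisj, h1, h2] at h7
  have h8 : H.index = Fintype.card (G ⧸ H) := by
    rw [Subgroup.index_eq_card, Nat.card_eq_fintype_card]
  omega

end Cfsg.Agent.Lib.Helper8.MinIdx
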