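import Cfsg.Agent.Lib.Helper47.UniDefs

/-!
# S2676 (helper47), piece TOP: a top Gram family for a skew-adjoint endomorphism with `N ^ j ≠ 0`
-/

set_option autoImplicit false

namespace Cfsg.Agent.Lib.Helper8.Uni

open Cfsg.Agent.Lib.Helper47 Module

universe u

variable {F : Type u} [Field F]

theorem skew_pow {V : Type*} [AddCommGroup V] [Module F V] {B : V → V → F} {N : V →ₗ[F] V}
    (hN : IsSkewAdj B N) (k : ℕ) (x y : V) :
    B ((N ^ k) x) y = (-1) ^ k * B x ((N ^ k) y) := by
  induction k generalizing x y with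
  | zero => simp
  | succ k ih =>
    have e1 : (N ^ (k + 1)) x = (N ^ k) (N x) := by rw [pow_succ]; rfl
    have e2 : (N ^ (k + 1)) y = N ((N ^ k) y) := by rw [pow_succ']; rfl
    rw [e1, e2, ih, hN, pow_succ]
    ring

-- PIECE TOP
theorem exists_top {V : Type*} [AddCommGroup V] [Module F V] {B : V → V → F} {N : V →ₗ[F] V}
    (hB : IsSForm (RingHom.id F) (-1) B) (h2 : (2 : F) ≠ 0) (hnd : Nondeg B)
    (hN : IsSkewAdj B N) (j : ℕ) (hj' : N ^ j ≠ 0) :
    ∃ (r : ℕ) (x : Fin r → V), 0 < r ∧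
      Nondeg (gForm (fun a b : Fin r => B (x a) ((N ^ j) (x b)))) := by
  have hsym : ∀ y z : V, B z ((N ^ j) y) = (-1) ^ (j + 1) * B y ((N ^ j) z) := by
    intro y z
    have h1 := hB.symm ((N ^ j) y) z
    rw [h1, skew_pow hN]
    simp only [RingHom.id_apply]
    ring
  have hadd : ∀ y y' z : V, B (y + y') ((N ^ j) z) = B y ((N ^ j) z) + B y' ((N ^ j) z) :=
    fun y y' z => hB.add_left _ _ _
  have haddr : ∀ y z z' : V, B y ((N ^ j) (z + z')) = B y ((N ^ j) z) + B y ((N ^ j) z') := by
    intro y z z'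
    rw [map_add, hB.add_right]
  obtain ⟨y0, hy0⟩ : ∃ y0, (N ^ j) y0 ≠ 0 := by
    by_contra hcon
    push Not at hcon
    exact hj' (LinearMap.ext hcon)
  obtain ⟨z0, hz0⟩ : ∃ z0, B z0 ((N ^ j) y0) ≠ 0 := by
    by_contra hcon
    push Not at hcon
    exact hy0 (hB.nondeg_right hnd _ hcon)
  rcases Nat.even_or_odd j with hev | hodd
  · -- `j` even: the form is alternating
    have hs : ∀ y z : V, B z ((N ^ j) y) = - B y ((N ^ j) z) := by
      intro y z
      rw [hsym, pow_succ, hev.neg_one_pow]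
      ring
    have hself : ∀ v : V, B v ((N ^ j) v) = 0 := by
      intro v
      have h1 := hs v v
      have h3 : (2 : F) * B v ((N ^ j) v) = 0 := by linear_combination h1
      rcases mul_eq_zero.mp h3 with h4 | h4
      · exact absurd h4 h2
      · exact h4
    refine ⟨2, ![z0, y0], by norm_num, ?_⟩
    intro v hv
    have hv0 := hv ![0, 1]
    have hv1 := hv ![1, 0]
    simp only [gForm, Fin.sum_univ_two, Matrix.cons_val_zero, Matrix.cons_val_one,
      mul_zero, mul_one, zero_add, add_zero, hself] at hv0 hv1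
    rw [hs z0 y0] at hv1
    have h0 : v 0 = 0 := (mul_eq_zero.mp hv0).resolve_right hz0
    have h1 : v 1 = 0 := (mul_eq_zero.mp hv1).resolve_right (neg_ne_zero.mpr hz0)
    funext a
    fin_cases a
    · exact h0
    · exact h1
  · -- `j` odd: the form is symmetric
    have hs : ∀ y z : V, B z ((N ^ j) y) = B y ((N ^ j) z) := by
      intro y z
      rw [hsym, hodd.add_one.neg_one_pow, one_mul]
    obtain ⟨x, hx⟩ : ∃ x : V, B x ((N ^ j) x) ≠ 0 := by
      by_cases h1 : B y0 ((N ^ j) y0) = 0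
      · by_cases h3 : B z0 ((N ^ j) z0) = 0
        · refine ⟨y0 + z0, ?_⟩
          rw [hadd, haddr, haddr, h1, h3, hs z0 y0, zero_add, add_zero, ← two_mul]
          exact mul_ne_zero h2 hz0
        · exact ⟨z0, h3⟩
      · exact ⟨y0, h1⟩
    refine ⟨1, fun _ => x, Nat.one_pos, ?_⟩
    intro v hv
    have hv0 := hv (fun _ => 1)
    simp only [gForm, Finset.univ_unique, Finset.sum_singleton, mul_one] at hv0
    have h0 : v default = 0 := (mul_eq_zero.mp hv0).resolve_right hx
    funext a
    rw [Subsingleton.elim a default]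
    exact h0

end Cfsg.Agent.Lib.Helper8.Uni
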