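import Cfsg.Agent.Lib.Helper96.SpTI
import Cfsg.Agent.Lib.Helper4.SpHalf

/-!
# S5955 (helper96), piece PIGEON: among more than `(r - 1) / i` irreducible invariant blocks in
`range (T - 1)`, two are killed by the same irreducible polynomial
-/

set_option autoImplicit false

namespace Cfsg.Agent.Lib.Helper8.SpPigeon

open Module Polynomial Cfsg.Agent.Lib.Helper96.Sp

section gen

variable {F : Type*} [Field F] {V : Type*} [AddCommGroup V] [Module F V]

theorem aeval_comm_apply (T : Module.End F V) (g : F[X]) (z : V) :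
    (aeval T g) (T z) = T ((aeval T g) z) := by
  have h1 : aeval T (g * X) = aeval T (X * g) := by rw [mul_comm]
  rw [map_mul, map_mul, aeval_X] at h1
  exact LinearMap.congr_fun h1 z

theorem kills_of_dvd {T : Module.End F V} {Q : Submodule F V} {g h : F[X]} (hgh : g ∣ h)
    (hg : Kills T g Q) : Kills T h Q := by
  obtain ⟨c, rfl⟩ := hgh
  intro u hu
  rw [mul_comm, map_mul, Module.End.mul_apply, hg u hu, map_zero]

theorem dvd_of_kills {T : Module.End F V} {Q : Submodule F V} (hQ0 : Q ≠ ⊥) {g h : F[X]}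
    (hg : Irreducible g) (hgk : Kills T g Q) (hhk : Kills T h Q) : g ∣ h := by
  by_contra hnd
  obtain ⟨a, b, hab⟩ := hg.coprime_iff_not_dvd.mpr hnd
  apply hQ0
  rw [eq_bot_iff]
  intro u hu
  have h1 : (aeval T (a * g + b * h)) u = u := by
    rw [hab, map_one, Module.End.one_apply]
  rw [map_add, map_mul, map_mul, LinearMap.add_apply, Module.End.mul_apply,
    Module.End.mul_apply, hgk u hu, hhk u hu, map_zero, map_zero, add_zero] at h1
  rw [Submodule.mem_bot, ← h1]

/-- an irreducible invariant subspace killed by a nonzero polynomial is killed by an irreducible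
polynomial -/
theorem exists_irreducible_kills (T : Module.End F V) (Q : Submodule F V) (hQT : Q.map T ≤ Q)
    (hQ0 : Q ≠ ⊥) (hirr : ∀ Z : Submodule F V, Z ≤ Q → Z.map T ≤ Z → Z = ⊥ ∨ Z = Q)
    (g₀ : F[X]) (hg₀ : g₀ ≠ 0) (hg₀k : Kills T g₀ Q) :
    ∃ g : F[X], Irreducible g ∧ Kills T g Q := by
  classical
  obtain ⟨u₀, hu₀Q, hu₀⟩ := (Submodule.ne_bot_iff Q).mp hQ0
  have hS : ∃ n : ℕ, ∃ g : F[X], g ≠ 0 ∧ g.natDegree = n ∧
      ∃ u ∈ Q, u ≠ 0 ∧ (aeval T g) u = 0 :=
    ⟨g₀.natDegree, g₀, hg₀, rfl, u₀, hu₀Q, hu₀, hg₀k u₀ hu₀Q⟩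
  obtain ⟨g, hg0, hgdeg, u, huQ, hu0, hgu⟩ := Nat.find_spec hS
  have hmin : ∀ a : F[X], a ≠ 0 → a.natDegree < Nat.find hS → ∀ v ∈ Q, v ≠ 0 →
      (aeval T a) v ≠ 0 := by
    intro a ha0 hadeg v hvQ hv0 hav
    exact Nat.find_min hS hadeg ⟨a, ha0, rfl, v, hvQ, hv0, hav⟩
  have hgirr : Irreducible g := by
    rw [irreducible_iff]
    constructor
    · intro hunit
      obtain ⟨c, hc, rfl⟩ := Polynomial.isUnit_iff.mp hunit
      rw [aeval_C, Module.algebraMap_end_apply] at hgu
      exact hu0 ((smul_eq_zero.mp hgu).resolve_left hc.ne_zero)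
    · intro a b hab
      by_contra hnu
      push Not at hnu
      obtain ⟨hna, hnb⟩ := hnu
      have ha0 : a ≠ 0 := by
        rintro rfl
        rw [zero_mul] at hab
        exact hg0 hab
      have hb0 : b ≠ 0 := by
        rintro rfl
        rw [mul_zero] at hab
        exact hg0 hab
      have hda : 0 < a.natDegree :=
        natDegree_pos_iff_degree_pos.mpr (degree_pos_of_ne_zero_of_nonunit ha0 hna)
      have hdb : 0 < b.natDegree :=
        natDegree_pos_iff_degree_pos.mpr (degree_pos_of_ne_zero_of_nonunit hb0 hnb)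
      have hdeg : g.natDegree = a.natDegree + b.natDegree := by
        rw [hab, natDegree_mul ha0 hb0]
      by_cases hbu : (aeval T b) u = 0
      · exact hmin b hb0 (by omega) u huQ hu0 hbu
      · refine hmin a ha0 (by omega) _
          (Cfsg.Agent.Lib.Helper4.SpHalf.aeval_mem_of_map_le T Q hQT b u huQ) hbu ?_
        rw [← Module.End.mul_apply, ← map_mul, ← hab]
        exact hgu
  refine ⟨g, hgirr, ?_⟩
  have hZ : (Q ⊓ LinearMap.ker (aeval T g)).map T ≤ Q ⊓ LinearMap.ker (aeval T g) := by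
    rintro _ ⟨z, hz, rfl⟩
    have hzQ : z ∈ Q := hz.1
    have hzk : (aeval T g) z = 0 := LinearMap.mem_ker.mp hz.2
    refine ⟨hQT ⟨z, hzQ, rfl⟩, ?_⟩
    apply LinearMap.mem_ker.mpr
    rw [aeval_comm_apply, hzk, map_zero]
  rcases hirr _ inf_le_left hZ with h | h
  · exfalso
    have h1 : u ∈ Q ⊓ LinearMap.ker (aeval T g) := ⟨huQ, LinearMap.mem_ker.mpr hgu⟩
    rw [h, Submodule.mem_bot] at h1
    exact hu0 h1
  · intro v hv
    have h1 : v ∈ Q ⊓ LinearMap.ker (aeval T g) := by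
      rw [h]
      exact hv
    exact LinearMap.mem_ker.mp h1.2

end gen

/-- an irreducible factor of `X ^ r - 1` other than `X - 1` has degree at least `ord_r(q)` -/
theorem orderOf_le_natDegree {F : Type*} [Field F] [Fintype F] (r : ℕ) [Fact r.Prime]
    (hrq : ¬ r ∣ Fintype.card F) {g : F[X]} (hg : Irreducible g) (hdvd : g ∣ X ^ r - 1)
    (hX : ¬ g ∣ X - 1) : orderOf ((Fintype.card F : ℕ) : ZMod r) ≤ g.natDegree := by
  haveI : Fact (Irreducible g) := ⟨hg⟩
  have hg0 : g ≠ 0 := hg.ne_zero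
  haveI : FiniteDimensional F (AdjoinRoot g) := (AdjoinRoot.powerBasis hg0).finite
  have hfr : finrank F (AdjoinRoot g) = g.natDegree := by
    rw [(AdjoinRoot.powerBasis hg0).finrank, AdjoinRoot.powerBasis_dim]
  have hroot : AdjoinRoot.root g ^ r = 1 := by
    have h1 : AdjoinRoot.mk g (X ^ r - 1) = 0 := AdjoinRoot.mk_eq_zero.mpr hdvd
    rw [map_sub, map_pow, AdjoinRoot.mk_X, map_one, sub_eq_zero] at h1
    exact h1
  have hroot1 : AdjoinRoot.root g - 1 ≠ 0 := by
    intro h0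
    apply hX
    rw [← AdjoinRoot.mk_eq_zero, map_sub, AdjoinRoot.mk_X, map_one]
    exact h0
  obtain ⟨T', hT'⟩ : ∃ T' : Module.End F (AdjoinRoot g),
      ∀ x, T' x = AdjoinRoot.root g * x :=
    ⟨LinearMap.mulLeft F (AdjoinRoot.root g), fun x => rfl⟩
  have hpow : ∀ (n : ℕ) (x : AdjoinRoot g), (T' ^ n) x = AdjoinRoot.root g ^ n * x := by
    intro n
    induction n with
    | zero =>
      intro x
      rw [pow_zero, pow_zero, Module.End.one_apply, one_mul]
    | succ n ih =>
      intro x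
      rw [pow_succ, Module.End.mul_apply, hT', ih, pow_succ]
      ring
  have hT'r : T' ^ r = 1 := by
    apply LinearMap.ext
    intro x
    rw [hpow, hroot, one_mul, Module.End.one_apply]
  have hker : LinearMap.ker (T' - 1) = ⊥ := by
    rw [LinearMap.ker_eq_bot']
    intro x hx
    rw [LinearMap.sub_apply, hT', Module.End.one_apply] at hx
    have h1 : (AdjoinRoot.root g - 1) * x = 0 := by
      rw [sub_mul, one_mul]
      exact hx
    exact (mul_eq_zero.mp h1).resolve_left hroot1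
  have h := Cfsg.Agent.Lib.Helper96.BG.orderOf_dvd_sub T' r hrq hT'r ⊤ le_top
  rw [hker, inf_bot_eq, finrank_bot, Nat.sub_zero, finrank_top, hfr] at h
  exact Nat.le_of_dvd hg.natDegree_pos h

/-- PIGEON. -/
theorem exists_same_type {F : Type*} [Field F] [Fintype F] {V : Type*} [AddCommGroup V]
    [Module F V] [FiniteDimensional F V] (T : Module.End F V) (r : ℕ) [Fact r.Prime]
    (hrq : ¬ r ∣ Fintype.card F) (hr0 : (r : F) ≠ 0) (hTr : T ^ r = 1) {s : ℕ}
    (P : Fin s → Submodule F V)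
    (hP : ∀ j, (P j).map T ≤ P j ∧ P j ≤ LinearMap.range (T - 1) ∧
      finrank F (P j) = orderOf ((Fintype.card F : ℕ) : ZMod r))
    (hs : (r - 1) / orderOf ((Fintype.card F : ℕ) : ZMod r) < s) :
    ∃ j j' : Fin s, j ≠ j' ∧ ∃ f : Polynomial F, Irreducible f ∧ Kills T f (P j) ∧
      Kills T f (P j') := by
  classical
  by_contra hcon
  have hcon' : ∀ j j' : Fin s, j ≠ j' → ∀ f : F[X], Irreducible f → Kills T f (P j) →
      ¬ Kills T f (P j') := by
    intro j j' hne f hf h1 h2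
    exact hcon ⟨j, j', hne, f, hf, h1, h2⟩
  have hr : r.Prime := Fact.out
  have hi1 : 1 ≤ orderOf ((Fintype.card F : ℕ) : ZMod r) :=
    (Cfsg.Agent.Lib.Helper96.BG.pow_one_setup T r hrq hr0 hTr).1
  have hXr0 : (X ^ r - 1 : F[X]) ≠ 0 := by
    have h1 := X_pow_sub_C_ne_zero (R := F) hr.pos 1
    rwa [map_one] at h1
  have hXrk : ∀ Q : Submodule F V, Kills T (X ^ r - 1) Q := by
    intro Q u _
    rw [map_sub, map_pow, aeval_X, map_one, hTr, sub_self, LinearMap.zero_apply]
  have hP0 : ∀ j, P j ≠ ⊥ := by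
    intro j h0
    have h1 := (hP j).2.2
    rw [h0, finrank_bot] at h1
    omega
  -- an irreducible polynomial killing each block
  have hex : ∀ j, ∃ g : F[X], Irreducible g ∧ Kills T g (P j) := fun j =>
    exists_irreducible_kills T (P j) (hP j).1 (hP0 j)
      (fun Z hZU hZ => inv_eq_bot_or T r hrq hr0 hTr (P j) (hP j).2.1 (hP j).2.2 Z hZU hZ)
      (X ^ r - 1) hXr0 (hXrk _)
  choose g hgirr hgk using hex
  have hgdvd : ∀ j, g j ∣ X ^ r - 1 := fun j =>
    dvd_of_kills (hP0 j) (hgirr j) (hgk j) (hXrk _)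
  have hgX : ∀ j, ¬ g j ∣ X - 1 := by
    intro j hd
    have h1 : Kills T (X - 1) (P j) := kills_of_dvd hd (hgk j)
    apply hP0 j
    rw [eq_bot_iff]
    intro u hu
    have h2 : u ∈ LinearMap.ker (T - 1) := by
      have h3 := h1 u hu
      rw [map_sub, aeval_X, map_one] at h3
      exact LinearMap.mem_ker.mpr h3
    have h4 : u ∈ LinearMap.ker (T - 1) ⊓ LinearMap.range (T - 1) := ⟨h2, (hP j).2.1 hu⟩
    rw [Cfsg.Agent.Lib.Helper96.BG.ker_inf_range T r hr0 hTr] at h4
    exact h4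
  have hgdeg : ∀ j, orderOf ((Fintype.card F : ℕ) : ZMod r) ≤ (g j).natDegree := fun j =>
    orderOf_le_natDegree r hrq (hgirr j) (hgdvd j) (hgX j)
  have hcop : Pairwise (Function.onFun IsCoprime g) := by
    intro j j' hne
    show IsCoprime (g j) (g j')
    rw [(hgirr j).coprime_iff_not_dvd]
    intro hd
    exact hcon' j j' hne (g j') (hgirr j') (kills_of_dvd hd (hgk j)) (hgk j')
  have hprod : (X - 1) * ∏ j, g j ∣ X ^ r - 1 := by
    refine IsCoprime.mul_dvd (IsCoprime.prod_right (fun j _ => ?_)) ?_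
      (Fintype.prod_dvd_of_coprime hcop hgdvd)
    · exact ((hgirr j).coprime_iff_not_dvd.mpr (hgX j)).symm
    · have h1 := sub_dvd_pow_sub_pow (X : F[X]) 1 r
      rwa [one_pow] at h1
  have hX1 : (X - 1 : F[X]) ≠ 0 := by
    have h1 := X_sub_C_ne_zero (1 : F)
    rwa [map_one] at h1
  have hprod0 : ∏ j, g j ≠ 0 := Finset.prod_ne_zero_iff.mpr (fun j _ => (hgirr j).ne_zero)
  have hdeg := natDegree_le_of_dvd hprod hXr0
  have hd1 : (X - 1 : F[X]).natDegree = 1 := by
    have h1 := natDegree_X_sub_C (1 : F)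
    rwa [map_one] at h1
  have hd2 : (X ^ r - 1 : F[X]).natDegree = r := by
    have h1 := natDegree_X_pow_sub_C (R := F) (n := r) (r := 1)
    rwa [map_one] at h1
  rw [natDegree_mul hX1 hprod0, hd1, hd2,
    natDegree_prod _ _ (fun j _ => (hgirr j).ne_zero)] at hdeg
  have hsum : s * orderOf ((Fintype.card F : ℕ) : ZMod r) ≤ ∑ j, (g j).natDegree := by
    calc s * orderOf ((Fintype.card F : ℕ) : ZMod r)
        = ∑ _j : Fin s, orderOf ((Fintype.card F : ℕ) : ZMod r) := by
          rw [Finset.sum_const, Finset.card_univ, Fintype.card_fin, smul_eq_mul]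
      _ ≤ ∑ j, (g j).natDegree := Finset.sum_le_sum (fun j _ => hgdeg j)
  have hle : s ≤ (r - 1) / orderOf ((Fintype.card F : ℕ) : ZMod r) := by
    rw [Nat.le_div_iff_mul_le hi1]
    omega
  omega

end Cfsg.Agent.Lib.Helper8.SpPigeon
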