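import Mathlib
import Cfsg.Prelude.Def_LieTypeDatum
import Cfsg.Agent.Lib.Helper54.GTCSP

/-!
# S2701, piece GT4-PGSP2 (helper8, for helper53)

Over a finite field of characteristic 2 every multiplier of a symplectic similarity is a square,
so `PGSp m F ≃* Sp_{2m}(F)`.
-/

set_option autoImplicit false

namespace Cfsg.Agent.Lib.Helper8.GT4PGSP2

open Matrix

/-- every element of a finite field of characteristic 2 is a square -/
theorem sq_surj {F : Type*} [Field F] [Finite F] (h20 : (2 : F) = 0) (c : F) :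
    ∃ e : F, e * e = c := by
  have hinj : Function.Injective (fun x : F => x * x) := by
    intro x y hxy
    have hxy' : x * x = y * y := hxy
    have h1 : (x - y) * (x - y) = 0 := by
      have e1 : (x - y) * (x - y) = x * x + y * y - 2 * (x * y) := by ring
      rw [e1, h20, zero_mul, sub_zero, hxy', ← two_mul, h20, zero_mul]
    exact sub_eq_zero.1 (mul_self_eq_zero.1 h1)
  exact (Finite.injective_iff_surjective.1 hinj) c

theorem pgsp_char_two {F : Type*} [Field F] [Fintype F] (h20 : (2 : F) = 0) (m : ℕ)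
    (hm : 1 ≤ m) :
    Nonempty (Cfsg.PGSp m F ≃* ↥(Matrix.symplecticGroup (Fin m) F)) := by
  classical
  have hmem : ∀ s : Matrix.symplecticGroup (Fin m) F,
      (Matrix.symplecticGroup (Fin m) F).subtype.toHomUnits s ∈ Cfsg.GSp m F := by
    intro s
    rw [Cfsg.Agent.Lib.Helper54.GTCSP.mem_GSp_iff]
    refine ⟨1, ?_⟩
    rw [MonoidHom.coe_toHomUnits, Units.val_one, one_smul]
    exact SymplecticGroup.mem_iff.1 s.2
  obtain ⟨ψ, hψ⟩ : ∃ ψ : Matrix.symplecticGroup (Fin m) F →* ↥(Cfsg.GSp m F),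
      ∀ s, (((ψ s : ↥(Cfsg.GSp m F)) : GL (Fin m ⊕ Fin m) F) :
        Matrix (Fin m ⊕ Fin m) (Fin m ⊕ Fin m) F) = (s : Matrix (Fin m ⊕ Fin m) (Fin m ⊕ Fin m) F) :=
    ⟨((Matrix.symplecticGroup (Fin m) F).subtype.toHomUnits).codRestrict (Cfsg.GSp m F) hmem,
      fun s => rfl⟩
  obtain ⟨N, hN⟩ : ∃ N : Subgroup ↥(Cfsg.GSp m F),
      N = (Cfsg.Geo.scalars (Fin m ⊕ Fin m) F).subgroupOf (Cfsg.GSp m F) := ⟨_, rfl⟩
  haveI : N.Normal := by rw [hN]; infer_instance
  obtain ⟨φ, hφ⟩ : ∃ φ : Matrix.symplecticGroup (Fin m) F →* ↥(Cfsg.GSp m F) ⧸ N,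
      ∀ s, φ s = QuotientGroup.mk (ψ s) := ⟨(QuotientGroup.mk' N).comp ψ, fun s => rfl⟩
  have hinj : Function.Injective φ := by
    rw [injective_iff_map_eq_one]
    intro s hs
    rw [hφ] at hs
    have h1 : ψ s ∈ N := (QuotientGroup.eq_one_iff _).1 hs
    rw [hN, Subgroup.mem_subgroupOf, Cfsg.Geo.mem_scalars_iff] at h1
    obtain ⟨c, hc⟩ := h1
    rw [hψ] at hc
    have h3 := SymplecticGroup.mem_iff.1 s.2
    rw [hc] at h3
    have h4 : ((c : F) • (1 : Matrix (Fin m ⊕ Fin m) (Fin m ⊕ Fin m) F)) * Matrix.J (Fin m) F *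
        ((c : F) • (1 : Matrix (Fin m ⊕ Fin m) (Fin m ⊕ Fin m) F)).transpose =
        ((c : F) * (c : F)) • Matrix.J (Fin m) F := by
      rw [Matrix.transpose_smul, Matrix.transpose_one, Matrix.smul_mul, Matrix.one_mul,
        Matrix.mul_smul, Matrix.mul_one, smul_smul]
    rw [h4] at h3
    have h5 := congrFun (congrFun h3 (Sum.inr ⟨0, hm⟩)) (Sum.inl ⟨0, hm⟩)
    simp [Matrix.J] at h5
    have h6 : ((c : F) - 1) * ((c : F) - 1) = 0 := by
      have e1 : ((c : F) - 1) * ((c : F) - 1) = (c : F) * (c : F) - 2 * (c : F) + 1 := by ring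
      rw [e1, h5, h20, zero_mul, sub_zero, one_add_one_eq_two, h20]
    have h7 : (c : F) = 1 := sub_eq_zero.1 (mul_self_eq_zero.1 h6)
    apply Subtype.ext
    rw [hc, h7, one_smul]
    rfl
  have hsurj : Function.Surjective φ := by
    intro x
    obtain ⟨g, rfl⟩ := QuotientGroup.mk_surjective x
    obtain ⟨c, hc⟩ := (Cfsg.Agent.Lib.Helper54.GTCSP.mem_GSp_iff m (g : GL (Fin m ⊕ Fin m) F)).1 g.2
    obtain ⟨e, he⟩ := sq_surj h20 (c : F)
    have he0 : e ≠ 0 := by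
      rintro rfl
      rw [mul_zero] at he
      exact c.ne_zero he.symm
    have hS : e⁻¹ • ((g : GL (Fin m ⊕ Fin m) F) : Matrix (Fin m ⊕ Fin m) (Fin m ⊕ Fin m) F) ∈
        Matrix.symplecticGroup (Fin m) F := by
      rw [SymplecticGroup.mem_iff, Matrix.transpose_smul, Matrix.smul_mul, Matrix.smul_mul,
        Matrix.mul_smul, hc, smul_smul, smul_smul, ← he]
      have e1 : e⁻¹ * e⁻¹ * (e * e) = 1 := by field_simp
      rw [e1, one_smul]
    refine ⟨⟨_, hS⟩, ?_⟩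
    rw [hφ, eq_comm, QuotientGroup.eq, hN, Subgroup.mem_subgroupOf, Cfsg.Geo.mem_scalars_iff]
    refine ⟨(Units.mk0 e he0)⁻¹, ?_⟩
    rw [Subgroup.coe_mul, Units.val_mul, hψ, Subgroup.coe_inv, Matrix.mul_smul, Units.inv_mul,
      Units.val_inv_eq_inv_val, Units.val_mk0]
  have hE : Nonempty ((↥(Cfsg.GSp m F) ⧸ N) ≃* ↥(Matrix.symplecticGroup (Fin m) F)) :=
    ⟨(MulEquiv.ofBijective φ ⟨hinj, hsurj⟩).symm⟩
  subst hN
  exact hE

end Cfsg.Agent.Lib.Helper8.GT4PGSP2
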