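import Mathlib
import Cfsg.Prelude.Def_GeometricClasses
import Cfsg.Agent.Lib.Helper71.SLP0

/-!
# SLP piece N8q (helper8 for helper71): `SL_n(F)`, `n ≥ 3`, is not contained in the similarity
group of a nondegenerate quadratic form.
-/

set_option autoImplicit false
set_option linter.unusedSectionVars false

namespace Cfsg.Agent.Lib.Helper8.SLPN8q

open Matrix Cfsg.Geo Cfsg.Agent.Lib.Helper71.SLP

variable {n : ℕ} {F : Type*} [Field F] [Fintype F]

/-- N8q -/
theorem N8q (hn : 3 ≤ n) (Q : (Fin n → F) → F) (hQ : IsNondegenerateQuadraticForm Q) :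
    ¬ specialLinear (Fin n) F ≤ quadSimilarityGroup Q := by
  classical
  intro hle
  have hbil := hQ.polar_bilinear
  have hfr : Module.finrank F (Fin n → F) = n := by
    rw [Module.finrank_fintype_fun_eq_card, Fintype.card_fin]
  -- Step 1: `u₀ ∉ span {v₀}` with `B u₀ v₀ ≠ 0`
  obtain ⟨v₀, hv₀⟩ : ∃ v₀ : Fin n → F, v₀ ≠ 0 := by
    refine ⟨Pi.single ⟨0, by omega⟩ 1, ?_⟩
    intro h
    have h1 := congrFun h ⟨0, by omega⟩
    simp at h1
  obtain ⟨y, hy⟩ : ∃ y : Fin n → F, y ∉ Submodule.span F ({v₀} : Set (Fin n → F)) := by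
    by_contra hcon
    push Not at hcon
    have htop : Submodule.span F ({v₀} : Set (Fin n → F)) = ⊤ := by
      rw [eq_top_iff]
      intro v _
      exact hcon v
    have h1 := finrank_span_singleton (K := F) hv₀
    rw [htop, finrank_top, hfr] at h1
    omega
  obtain ⟨x, hx⟩ := (hQ.nondegenerate v₀ hv₀).1
  obtain ⟨u₀, hu₀, hB⟩ : ∃ u₀ : Fin n → F, u₀ ∉ Submodule.span F ({v₀} : Set (Fin n → F)) ∧
      QuadraticMap.polar Q u₀ v₀ ≠ 0 := by
    by_cases hxs : x ∈ Submodule.span F ({v₀} : Set (Fin n → F))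
    · by_cases hyB : QuadraticMap.polar Q y v₀ = 0
      · refine ⟨y + x, fun h => hy ?_, ?_⟩
        · have h1 := Submodule.sub_mem _ h hxs
          rwa [add_sub_cancel_right] at h1
        · rw [hbil.add_left, hyB, zero_add]
          exact hx
      · exact ⟨y, hy, hyB⟩
    · exact ⟨x, hxs, hx⟩
  -- Step 2: the transvection
  have hE : Submodule.span F ({u₀, v₀} : Set (Fin n → F)) ≠ ⊤ := by
    intro htop
    have h1 : Module.finrank F (Submodule.span F ((({u₀, v₀} : Finset (Fin n → F)) :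
        Set (Fin n → F)))) ≤ ({u₀, v₀} : Finset (Fin n → F)).card :=
      finrank_span_finset_le_card _
    rw [Finset.coe_insert, Finset.coe_singleton, htop, finrank_top, hfr] at h1
    have h3 : ({u₀, v₀} : Finset (Fin n → F)).card ≤ 2 := Finset.card_le_two
    omega
  obtain ⟨φ, hφ0, hφE⟩ := exists_dual_ne_zero _ hE
  have hφu : φ ⬝ᵥ u₀ = 0 := hφE u₀ (Submodule.subset_span (by simp))
  have hφv : φ ⬝ᵥ v₀ = 0 := hφE v₀ (Submodule.subset_span (by simp))
  obtain ⟨a, ha⟩ : ∃ a : Fin n → F, φ ⬝ᵥ a = 1 := by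
    obtain ⟨i, hi⟩ : ∃ i, φ i ≠ 0 := by
      by_contra hcon
      push Not at hcon
      exact hφ0 (funext hcon)
    refine ⟨(φ i)⁻¹ • Pi.single i 1, ?_⟩
    rw [dotProduct_smul, dotProduct_single_one, smul_eq_mul, inv_mul_cancel₀ hi]
  obtain ⟨c, hc⟩ := hle (tv_mem_specialLinear u₀ φ hφu)
  have hg : ∀ v, Q (v + (φ ⬝ᵥ v) • u₀) = (c : F) * Q v := by
    intro v
    rw [← tv_mulVec u₀ φ hφu v]
    exact hc v
  have hgu := hg u₀
  rw [hφu, zero_smul, add_zero] at hgu
  have hgv := hg v₀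
  rw [hφv, zero_smul, add_zero] at hgv
  have hguv := hg (u₀ + v₀)
  rw [dotProduct_add, hφu, hφv, add_zero, zero_smul, add_zero] at hguv
  have hc1 : (c : F) = 1 := by
    by_contra hne
    have h1 : ∀ z, Q z = (c : F) * Q z → Q z = 0 := by
      intro z hz
      by_contra hz0
      apply hne
      have h5 : ((c : F) - 1) * Q z = 0 := by rw [sub_mul, one_mul, ← hz, sub_self]
      rcases mul_eq_zero.mp h5 with h | h
      · exact sub_eq_zero.mp h
      · exact absurd h hz0
    apply hB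
    unfold QuadraticMap.polar
    rw [h1 _ hgu, h1 _ hgv, h1 _ hguv]
    ring
  have h1 := hg a
  rw [ha, one_smul, hc1, one_mul] at h1
  have h2 := hg (a + v₀)
  rw [dotProduct_add, ha, hφv, add_zero, one_smul, hc1, one_mul] at h2
  have h3 : QuadraticMap.polar Q a u₀ = - Q u₀ := by
    unfold QuadraticMap.polar
    rw [h1]
    ring
  have h4 : QuadraticMap.polar Q (a + v₀) u₀ = - Q u₀ := by
    unfold QuadraticMap.polar
    rw [h2]
    ring
  rw [hbil.add_left, h3] at h4
  apply hB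
  rw [QuadraticMap.polar_comm]
  linear_combination h4

end Cfsg.Agent.Lib.Helper8.SLPN8q
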