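import Mathlib
import Cfsg.Prelude.Def_GeometricClasses
import Cfsg.Agent.Lib.Helper71.OK1
import Cfsg.Agent.Lib.Helper52.Siegel

/-!
# S5701 piece E1 (helper8 for helper71): `cfg2_setup`

The data `c'`, `z₀` of configuration (ii): `h (k u) ≡ β (c' k) z₀` modulo `L u ∩ h (L u)` and
`B (h⁻¹ x) u = f(x, z₀) c'` on the perp of `u`.
-/

set_option autoImplicit false
set_option linter.unusedVariables false

namespace Cfsg.Agent.Lib.Helper8.OKE1

open Matrix Cfsg.Agent.Lib.Helper71.SpK Cfsg.Agent.Lib.Helper71.OK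

theorem cfg2_setup {ι : Type} [Fintype ι] [DecidableEq ι] {F : Type*} [Field F] [Finite F]
    {Q : QuadraticForm F (ι → F)} {L : Type*} [Field L] [Algebra F L] [FiniteDimensional F L]
    (S : KO (QuadraticMap.polar ⇑Q) L) (h2 : (2 : F) ≠ 0)
    (hQ : (QuadraticMap.polarBilin Q).Nondegenerate)
    (hr : (Module.finrank F L).Prime) (hd : 4 * Module.finrank F L ≤ Fintype.card ι) (M : Subgroup (GL ι F)) (hNM : S.NO Q ≤ M) (hMΩ : M ≤ Cfsg.Geo.omegaGL ⇑Q) {u : ι → F} {h : GL ι F} (hcfg : S.Cfg2 M u h) :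
    ∃ (c' : L) (z₀ : ι → F), S.Cfg2D M u h c' z₀ := by
  have hcfg' := hcfg
  obtain ⟨hgM, hu, huu, hperp, hfin⟩ := hcfg'
  let ψ : L →ₗ[F] (ι → F) := (glE h).toLinearMap ∘ₗ S.actL u
  have hψinj : Function.Injective ψ := (glE h).injective.comp (S.actL_injective hu)
  let DK : Submodule F L := (S.line u).comap ψ
  have hDKmem : ∀ k, k ∈ DK ↔ (h : Matrix ι ι F) *ᵥ (S.φ k *ᵥ u) ∈ S.line u :=
    fun k => Iff.rfl
  have hmap : DK.map ψ = S.line u ⊓ gim (S.line u) h := by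
    rw [Submodule.map_comap_eq, inf_comm]
    congr 1
    rw [LinearMap.range_comp]
    rfl
  have hfinDK : Module.finrank F DK + 1 = Module.finrank F L := by
    rw [← hfin, ← hmap]
    congr 1
    exact (Submodule.equivMapOfInjective ψ hψinj DK).finrank_eq
  have hDKtop : DK ≠ ⊤ := by
    intro h'
    rw [h', finrank_top] at hfinDK
    omega
  obtain ⟨k₀, hk₀⟩ : ∃ k₀, k₀ ∉ DK := by
    by_contra hcon
    push Not at hcon
    exact hDKtop (eq_top_iff.mpr fun k _ => hcon k)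
  obtain ⟨μ, hμk₀, hμle⟩ := Submodule.exists_le_ker_of_notMem hk₀
  have hker : DK = LinearMap.ker μ := by
    apply Submodule.eq_of_le_of_finrank_le hμle
    have hrn := LinearMap.finrank_range_add_finrank_ker μ
    have hr1 : Module.finrank F (LinearMap.range μ) = 1 := by
      have hsurj : Function.Surjective μ := fun t =>
        ⟨(t / μ k₀) • k₀, by rw [map_smul, smul_eq_mul, div_mul_cancel₀ _ hμk₀]⟩
      rw [LinearMap.range_eq_top.mpr hsurj, finrank_top, Module.finrank_self]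
    omega
  obtain ⟨c', hc'⟩ := S.β_repr μ
  have hc'0 : c' ≠ 0 := by
    rintro rfl
    apply hμk₀
    rw [hc', zero_mul, map_zero]
  have hdag : ∀ k, (h : Matrix ι ι F) *ᵥ (S.φ k *ᵥ u) ∈ S.line u ↔ S.β (c' * k) = 0 := by
    intro k
    rw [← hDKmem, hker, LinearMap.mem_ker, hc']
  obtain ⟨ct, hct⟩ := S.exists_β_eq hc'0 1
  have hkill : ∀ l : L, S.β (c' * (l - S.β (c' * l) • ct)) = 0 := by
    intro l
    rw [mul_sub, map_sub, mul_smul_comm, map_smul, smul_eq_mul, mul_comm c' ct, hct,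
      mul_one, sub_self]
  refine ⟨c', (h : Matrix ι ι F) *ᵥ (S.φ ct *ᵥ u), hcfg, hc'0,
    mulVec_mem_gim h (S.act_mem_line ct u), ?_, ?_, ?_⟩
  · intro hz
    have h0 := (hdag ct).mp hz
    rw [mul_comm, hct] at h0
    exact one_ne_zero h0
  · intro k
    refine ⟨(h : Matrix ι ι F) *ᵥ (S.φ (k - S.β (c' * k) • ct) *ᵥ u),
      Submodule.mem_inf.mpr ⟨(hdag _).mpr (hkill k), mulVec_mem_gim h (S.act_mem_line _ u)⟩, ?_⟩
    rw [S.φ_sub_mulVec, S.φ_smul_mulVec, Matrix.mulVec_sub, Matrix.mulVec_smul, sub_add_cancel]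
  · intro x hx
    have hfg : ∀ k : L, S.β (k * S.B (((h⁻¹ : GL ι F) : Matrix ι ι F) *ᵥ x) u) =
        QuadraticMap.polar ⇑Q x ((h : Matrix ι ι F) *ᵥ (S.φ k *ᵥ u)) := by
      intro k
      rw [← S.f_act_right, omega_polar_inv Q (hMΩ hgM)]
    have h1 : ∀ k : L, S.β (c' * k) = 0 →
        S.β (k * S.B (((h⁻¹ : GL ι F) : Matrix ι ι F) *ᵥ x) u) = 0 := by
      intro k hk
      rw [hfg]
      obtain ⟨l, hl⟩ := S.mem_line.mp ((hdag k).mpr hk)
      rw [← hl, S.f_act_right, hx, mul_zero, map_zero]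
    apply S.β_ext
    intro l
    have h2' := h1 (l - S.β (c' * l) • ct) (hkill l)
    rw [sub_mul, map_sub, smul_mul_assoc, map_smul, smul_eq_mul, sub_eq_zero, hfg ct] at h2'
    rw [h2']
    have e : l * (algebraMap F L
          (QuadraticMap.polar ⇑Q x ((h : Matrix ι ι F) *ᵥ (S.φ ct *ᵥ u))) * c') =
        (QuadraticMap.polar ⇑Q x ((h : Matrix ι ι F) *ᵥ (S.φ ct *ᵥ u))) • (c' * l) := by
      rw [Algebra.smul_def]
      ring
    rw [e, map_smul, smul_eq_mul, mul_comm]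

end Cfsg.Agent.Lib.Helper8.OKE1
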