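import Mathlib
import Cfsg.Agent.Lib.Helper72.JRDefs
import Cfsg.Agent.Lib.Helper55.Basic
import Cfsg.Agent.Lib.Helper82.JcOCPC
import Cfsg.Agent.Lib.Helper75.JcWF

/-! Project JR (helper72, S2950), piece SUBW: for `K` subnormal in `N`, `W_K ≤ O₂(N)`. -/

set_option autoImplicit false

namespace Cfsg.Agent.Lib.Helper8.JR

open Cfsg.Agent.Lib.Helper72.JR Cfsg.Agent.Lib.Helper72.JP Cfsg.Agent.Lib.Helper72.JM
  Cfsg.Agent.Lib.Helper72.JL Cfsg.Agent.Lib.Helper72.SC Cfsg.Agent.Lib.Helper78.Jc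
open scoped commutatorElement

universe u

/-- `O₂` of a subnormal subgroup of `N` lies in `O₂(N)` (relative form). -/
theorem subw_core {G : Type u} [Group G] (N : Subgroup G) (A : Subgroup ↥N)
    (hA : A.IsSubnormal) : Cfsg.pCoreOf 2 (A.map N.subtype) ≤ Cfsg.pCoreOf 2 N := by
  induction hA with
  | top =>
    have h : (⊤ : Subgroup ↥N).map N.subtype = N := by
      rw [← MonoidHom.range_eq_map, Subgroup.range_subtype]
    rw [h]
  | step H K h_le hSubn hN ih =>
    have hKN : K ≤ Subgroup.normalizer (H : Set ↥N) :=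
      (Subgroup.normal_subgroupOf_iff_le_normalizer h_le).mp hN
    have h1 : K.map N.subtype ≤
        Subgroup.normalizer ((H.map N.subtype : Subgroup G) : Set G) :=
      (Subgroup.map_mono hKN).trans (Subgroup.le_normalizer_map N.subtype)
    have h2 : Cfsg.pCoreOf 2 (H.map N.subtype) ≤ Cfsg.pCoreOf 2 (K.map N.subtype) :=
      Cfsg.Agent.Lib.Helper55.le_pCoreOf
        ((Cfsg.Agent.Lib.Helper55.pCoreOf_le _).trans (Subgroup.map_mono h_le))
        (h1.trans (Cfsg.Agent.Lib.Helper82.Jc.pc_normalizer _))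
        (Cfsg.Agent.Lib.Helper55.pCoreOf_isPGroup _)
    exact h2.trans ih

theorem subw : SubwStmt.{u} := by
  intro G _ _ K N hKN hsub
  have h1 : Cfsg.pCoreOf 2 K ≤ Cfsg.pCoreOf 2 N := by
    have h := subw_core N (K.subgroupOf N) hsub
    rwa [Subgroup.map_subgroupOf_eq_of_le hKN] at h
  have h2 : Cfsg.wOf K ≤ Cfsg.omegaCenterOf (Cfsg.pCoreOf 2 K) :=
    Cfsg.Agent.Lib.Helper75.Jc.wf_le _ K
      ((Subgroup.le_normalizer.trans (Cfsg.Agent.Lib.Helper82.Jc.pc_normalizer K)).trans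
        (Cfsg.Agent.Lib.Helper82.Jc.oc_normalizer _))
  exact h2.trans ((Cfsg.Agent.Lib.Helper82.Jc.oc_le _).trans h1)

end Cfsg.Agent.Lib.Helper8.JR
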