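import Mathlib
import Cfsg.Agent.Lib.Helper44.ESDefs

set_option autoImplicit false

/-! S5877 project ES (helper44), piece ES-QUOT: pass to `G ⧸ Z` and pull back. -/

namespace Cfsg.Agent.Lib.Helper44.ES

/-! ## ES-QUOT (ESDefs; abstract group theory) -/
theorem es_quot.{u} {G : Type u} [Group G] [Finite G] (H Z : Subgroup G) (g : G) (r : ℕ) (hr : r.Prime)
    (hS : Setup H Z g r) (hg : g ^ r = 1)
    (hnil : ∀ (Q : Type u) [Group Q] [Finite Q] (A : Subgroup Q) (q : Q),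
      (∀ a ∈ A, ∀ b ∈ A, a * b = b * a) → (∀ a ∈ A, a ^ r = 1) → (∀ a ∈ A, q * a * q⁻¹ ∈ A) → q ^ r = 1 →
      (∃ x ∈ A, q * x ≠ x * q) →
      ∃ x ∈ A, x⁻¹ * (q * x * q⁻¹) ≠ 1 ∧ q * (x⁻¹ * (q * x * q⁻¹)) = x⁻¹ * (q * x * q⁻¹) * q) :
    ∃ x ∈ H, ∃ a ∈ H, g * x * g⁻¹ = x * a ∧ a ∉ Z ∧ g * a = a * g := by
  have hB := hS.base
  haveI hZn : Z.Normal := ⟨fun s hs a => by
    have h := hB.central s hs a
    have h1 : a * s * a⁻¹ = s := by rw [← h, mul_inv_cancel_right]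
    rw [h1]
    exact hs⟩
  have hπ1 : ∀ y : G, (QuotientGroup.mk' Z) y = 1 ↔ y ∈ Z := fun y => QuotientGroup.eq_one_iff y
  have key : ∀ y ∈ H, (QuotientGroup.mk' Z) g * (QuotientGroup.mk' Z) y =
      (QuotientGroup.mk' Z) y * (QuotientGroup.mk' Z) g → g * y = y * g := by
    intro y hy h
    have hs : y⁻¹ * (g * y * g⁻¹) ∈ Z := by
      rw [← hπ1]
      simp only [map_mul, map_inv]
      rw [h]
      group
    have h1 := hS.notI y hy _ hs (by group)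
    have h2 : g * y * g⁻¹ = y := (inv_mul_eq_one.mp h1).symm
    calc g * y = (g * y * g⁻¹) * g := by group
      _ = y * g := by rw [h2]
  have hab : ∀ a ∈ H.map (QuotientGroup.mk' Z), ∀ b ∈ H.map (QuotientGroup.mk' Z),
      a * b = b * a := by
    rintro _ ⟨a, ha, rfl⟩ _ ⟨b, hb, rfl⟩
    have hc := hB.comm_mem a ha b hb
    have h1 : a * b = (a * b * a⁻¹ * b⁻¹) * (b * a) := by group
    rw [← map_mul, ← map_mul, h1, map_mul, (hπ1 _).mpr hc, one_mul]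
  have hexp : ∀ a ∈ H.map (QuotientGroup.mk' Z), a ^ r = 1 := by
    rintro _ ⟨a, ha, rfl⟩
    rw [← map_pow, hπ1]
    apply hB.cent
    intro b hb
    have hc := hB.comm_mem b hb a ha
    have hcp := hB.comm_pow b hb a ha
    have hcomm : Commute (b * a * b⁻¹ * a⁻¹) a := hB.central _ hc a
    have h1 : b * a ^ r * b⁻¹ = a ^ r := by
      rw [← conj_pow]
      have h2 : b * a * b⁻¹ = (b * a * b⁻¹ * a⁻¹) * a := by group
      rw [h2, hcomm.mul_pow, hcp, one_mul]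
    calc a ^ r * b = (b * a ^ r * b⁻¹) * b := by rw [h1]
      _ = b * a ^ r := by group
  have hnorm : ∀ a ∈ H.map (QuotientGroup.mk' Z),
      (QuotientGroup.mk' Z) g * a * ((QuotientGroup.mk' Z) g)⁻¹ ∈ H.map (QuotientGroup.mk' Z) := by
    rintro _ ⟨a, ha, rfl⟩
    exact ⟨g * a * g⁻¹, hS.norm a ha, by simp only [map_mul, map_inv]⟩
  have hq : (QuotientGroup.mk' Z) g ^ r = 1 := by rw [← map_pow, hg, map_one]
  have hnt : ∃ x ∈ H.map (QuotientGroup.mk' Z),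
      (QuotientGroup.mk' Z) g * x ≠ x * (QuotientGroup.mk' Z) g := by
    obtain ⟨x, hx, hgx⟩ := hS.nontriv
    exact ⟨(QuotientGroup.mk' Z) x, ⟨x, hx, rfl⟩, fun h => hgx (key x hx h)⟩
  obtain ⟨xb, hxA, hne, hcomm⟩ :=
    hnil (G ⧸ Z) (H.map (QuotientGroup.mk' Z)) ((QuotientGroup.mk' Z) g) hab hexp hnorm hq hnt
  obtain ⟨x, hxH, rfl⟩ := hxA
  have haH : x⁻¹ * (g * x * g⁻¹) ∈ H := H.mul_mem (H.inv_mem hxH) (hS.norm x hxH)
  refine ⟨x, hxH, x⁻¹ * (g * x * g⁻¹), haH, by group, ?_, ?_⟩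
  · intro haZ
    apply hne
    have h := (hπ1 _).mpr haZ
    simpa only [map_mul, map_inv] using h
  · apply key _ haH
    simp only [map_mul, map_inv]
    exact hcomm

end Cfsg.Agent.Lib.Helper44.ES
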