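import Mathlib
import Cfsg.Agent.Lib.Helper98.F75Defs

set_option autoImplicit false

/-! S5975 project F75 (helper98), piece RKCP: for a matrix `M` with `M ^ r = 1`, `r ≠ 0` in `F`,
the rank of `M - 1` is the degree of the part of the characteristic polynomial prime to `X - 1`. -/

namespace Cfsg.Agent.Lib.Helper98.F75

open Matrix Polynomial

theorem f75rkcp_key {F : Type*} [Field F] {V : Type*} [AddCommGroup V] [Module F V]
    (φ : Module.End F V) (r : ℕ) (hr : (r : F) ≠ 0) (hφ : φ ^ r = 1) (w : V)
    (hw : (φ - 1) ((φ - 1) w) = 0) : (φ - 1) w = 0 := by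
  have hφw' : φ w = w + (φ - 1) w := by simp
  have hφn : φ ((φ - 1) w) = (φ - 1) w := by
    have h := hw
    rw [LinearMap.sub_apply, Module.End.one_apply, sub_eq_zero] at h
    exact h
  have hj : ∀ j : ℕ, (φ ^ j) w = w + (j : F) • (φ - 1) w := by
    intro j
    induction j with
    | zero => simp
    | succ j ih =>
      rw [pow_succ', Module.End.mul_apply, ih, map_add, map_smul, hφn]
      nth_rewrite 1 [hφw']
      push_cast
      module
  have h1 := hj r
  rw [hφ, Module.End.one_apply] at h1
  have h2 : (r : F) • (φ - 1) w = 0 := by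
    have h3 : w + (r : F) • (φ - 1) w = w + 0 := by rw [add_zero]; exact h1.symm
    exact add_left_cancel h3
  exact (smul_eq_zero.mp h2).resolve_left hr

theorem f75rkcp_pow {F : Type*} [Field F] {V : Type*} [AddCommGroup V] [Module F V]
    (φ : Module.End F V) (r : ℕ) (hr : (r : F) ≠ 0) (hφ : φ ^ r = 1) (k : ℕ) (v : V)
    (hv : ((φ - 1) ^ k) v = 0) : (φ - 1) v = 0 := by
  induction k with
  | zero =>
    have h0 : v = 0 := by simpa using hv
    rw [h0, map_zero]
  | succ k ih =>
    rcases k with _ | k
    · simpa using hv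
    · apply ih
      rw [pow_succ', Module.End.mul_apply]
      apply f75rkcp_key φ r hr hφ
      rw [pow_succ', Module.End.mul_apply, pow_succ', Module.End.mul_apply] at hv
      exact hv

/-! ### F75-RKCP -/
theorem rank_sub_one_of_charpoly {F : Type*} [Field F] {ι : Type*} [Fintype ι] [DecidableEq ι]
    (M : Matrix ι ι F) (r : ℕ) (hr : (r : F) ≠ 0) (hM : M ^ r = 1) (c : ℕ) (g : F[X])
    (hg : g.eval 1 ≠ 0) (hc : M.charpoly = (X - 1) ^ c * g) : (M - 1).rank = g.natDegree := by
  have hφr : (Matrix.toLin' M) ^ r = 1 := by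
    rw [← Matrix.toLin'_pow, hM, Matrix.toLin'_one]
    rfl
  have hker : Module.End.maxGenEigenspace (Matrix.toLin' M) 1 =
      LinearMap.ker (Matrix.toLin' M - 1) := by
    ext v
    rw [Module.End.mem_maxGenEigenspace, LinearMap.mem_ker, one_smul]
    constructor
    · rintro ⟨k, hk⟩
      exact f75rkcp_pow (Matrix.toLin' M) r hr hφr k v hk
    · intro h
      exact ⟨1, by rw [pow_one]; exact h⟩
  have hg0 : g ≠ 0 := by
    rintro rfl
    simp at hg
  have hX : (X - 1 : F[X]) = X - C 1 := by simp
  have hmult : (Matrix.toLin' M).charpoly.rootMultiplicity 1 = c := by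
    rw [Matrix.charpoly_toLin', hc, hX,
      rootMultiplicity_mul (mul_ne_zero (pow_ne_zero c (X_sub_C_ne_zero 1)) hg0),
      rootMultiplicity_X_sub_C_pow, rootMultiplicity_eq_zero (by simpa [IsRoot] using hg),
      add_zero]
  have hfin : Module.finrank F (LinearMap.ker (Matrix.toLin' M - 1)) = c := by
    rw [← hker, LinearMap.finrank_maxGenEigenspace_eq, hmult]
  have hdeg : Fintype.card ι = c + g.natDegree := by
    rw [← Matrix.charpoly_natDegree_eq_dim M, hc, hX,
      natDegree_mul (pow_ne_zero c (X_sub_C_ne_zero 1)) hg0, natDegree_pow, natDegree_X_sub_C,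
      mul_one]
  have hrank : (M - 1).rank + Module.finrank F (LinearMap.ker (Matrix.toLin' M - 1)) =
      Fintype.card ι := by
    have h1 := LinearMap.finrank_range_add_finrank_ker (Matrix.toLin' M - 1)
    rw [Module.finrank_fintype_fun_eq_card] at h1
    have h2 : (M - 1).mulVecLin = Matrix.toLin' M - 1 := by
      rw [← Matrix.toLin'_apply', map_sub, Matrix.toLin'_one]
      rfl
    rw [Matrix.rank, h2]
    exact h1
  omega

end Cfsg.Agent.Lib.Helper98.F75
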