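import Mathlib
import Cfsg.Agent.Lib.Helper92.FT12Defs

set_option autoImplicit false

/-! S1421 project FT12 (helper92), piece EPP: the subgroup `C ⋊ H₀` (`H₀` a complement of the
normal abelian Sylow `p`-subgroup `P` of `E`, `C` from CYC). -/

namespace Cfsg.Agent.Lib.Helper8.FT12

open Cfsg Cfsg.Agent.Lib.Helper92.FT

universe u

/-- an element of order prime to the index of a normal subgroup lies in it -/
theorem epp_mem_of_coprime {Γ : Type*} [Group Γ] [Finite Γ] (N : Subgroup Γ) [N.Normal] (x : Γ)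
    (h : (orderOf x).Coprime N.index) : x ∈ N := by
  have h1 : x ^ N.index ∈ N := N.pow_index_mem x
  have h2 : Subgroup.zpowers (x ^ N.index) = Subgroup.zpowers x := by
    apply Subgroup.eq_of_le_of_card_ge
    · exact (Subgroup.zpowers_le).mpr (Subgroup.pow_mem _ (Subgroup.mem_zpowers x) _)
    · rw [Nat.card_zpowers, Nat.card_zpowers, h.orderOf_pow]
  have h3 : x ∈ Subgroup.zpowers (x ^ N.index) := h2 ▸ Subgroup.mem_zpowers x
  exact (Subgroup.zpowers_le.mpr h1) h3

theorem epp_mem_of_card_le {α : Type*} [Group α] [Finite α] (S : Finset α) (p : ℕ)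
    (hS : S.card ≤ p) (Y : Subgroup α) (hY : Nat.card Y = p) (hYS : ∀ a ∈ Y, a ∈ S) (z : α)
    (hz : z ∈ S) : z ∈ Y := by
  classical
  have hsub : (Y : Set α).toFinite.toFinset ⊆ S := by
    intro a ha
    rw [Set.Finite.mem_toFinset] at ha
    exact hYS a ha
  have hcard : ((Y : Set α).toFinite.toFinset).card = p := by
    rw [← Set.ncard_eq_toFinset_card (Y : Set α), ← hY]
    exact (Nat.card_coe_set_eq (Y : Set α)).symm
  have heq := Finset.eq_of_subset_of_card_le hsub (by rw [hcard]; exact hS)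
  rw [← heq, Set.Finite.mem_toFinset] at hz
  exact hz

/-- in a finite cyclic group an element with `z ^ p = 1` lies in every subgroup of order `p` -/
theorem epp_mem_of_cyclic {α : Type*} [Group α] [Finite α] [IsCyclic α] (p : ℕ) (hp : 0 < p)
    (Y : Subgroup α) (hY : Nat.card Y = p) (z : α) (hz : z ^ p = 1) : z ∈ Y := by
  classical
  haveI : Fintype α := Fintype.ofFinite α
  have hle := IsCyclic.card_pow_eq_one_le (α := α) hp
  refine epp_mem_of_card_le _ p hle Y hY ?_ z ?_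
  · intro a ha
    rw [Finset.mem_filter]
    refine ⟨Finset.mem_univ _, ?_⟩
    have h1 : (⟨a, ha⟩ : Y) ^ Nat.card Y = 1 := pow_card_eq_one'
    rw [hY] at h1
    have h2 := congrArg Subtype.val h1
    simpa using h2
  · rw [Finset.mem_filter]
    exact ⟨Finset.mem_univ _, hz⟩

theorem epp_top (hc : CycStmt.{u}) (Γ : Type u) [Group Γ] [Finite Γ] (p : ℕ) [Fact p.Prime]
    (P X : Subgroup Γ) (hPn : P.Normal) (hPp : IsPGroup p P)
    (hPab : ∀ a ∈ P, ∀ b ∈ P, a * b = b * a) (hPi : ¬ p ∣ P.index) (hXP : X ≤ P)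
    (hXn : X.Normal) (hXc : Nat.card X = p) (c : Γ) (hcP : c ∈ P)
    (hmax : ∀ x ∈ P, orderOf x ∣ orderOf c) (hcX : c ^ (orderOf c / p) ∈ X) :
    ∃ H : Subgroup Γ, (∀ r : ℕ, r.Prime → r ≠ p → ¬ r ∣ H.index) ∧
      (∃ y ∈ H, ∀ x : Γ, (∃ k : ℕ, orderOf x = p ^ k) → orderOf x ∣ orderOf y) ∧
      ∀ z ∈ H, orderOf z = p → z ∈ X := by
  have hp := (Fact.out : p.Prime)
  obtain ⟨C, hCP, hCn, hCcyc, hCcard, hXC⟩ :=
    hc Γ p P X hPn hPp hPab hPi hXP hXn hXc c hcP hmax hcX
  obtain ⟨n, hn⟩ := IsPGroup.iff_card.mp hPp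
  have hcop : (Nat.card P).Coprime P.index := by
    rw [hn]
    exact Nat.Coprime.pow_left n ((Nat.Prime.coprime_iff_not_dvd hp).mpr hPi)
  obtain ⟨H₀, hcompl⟩ := Subgroup.exists_right_complement'_of_coprime hcop
  have hmemP : ∀ x : Γ, (∃ k : ℕ, orderOf x = p ^ k) → x ∈ P := by
    rintro x ⟨k, hk⟩
    apply epp_mem_of_coprime P x
    rw [hk]
    exact Nat.Coprime.pow_left k ((Nat.Prime.coprime_iff_not_dvd hp).mpr hPi)
  refine ⟨C ⊔ H₀, ?_, ?_, ?_⟩
  · intro r hr hrp hdvd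
    have h1 : (C ⊔ H₀).index ∣ H₀.index := Subgroup.index_dvd_of_le le_sup_right
    rw [hcompl.index_eq_card, hn] at h1
    have h2 : r ∣ p ^ n := hdvd.trans h1
    exact hrp ((Nat.prime_dvd_prime_iff_eq hr hp).mp (hr.dvd_of_dvd_pow h2))
  · haveI := hCcyc
    obtain ⟨g, hg⟩ := IsCyclic.exists_ofOrder_eq_natCard (α := C)
    refine ⟨(g : Γ), (le_sup_left : C ≤ C ⊔ H₀) g.2, ?_⟩
    intro x hx
    rw [Subgroup.orderOf_coe, hg, hCcard]
    exact hmax x (hmemP x hx)
  · intro z hz hzp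
    have hzP : z ∈ P := hmemP z ⟨1, by rw [hzp, pow_one]⟩
    have hzC : z ∈ C := by
      have hz' : z ∈ ((C ⊔ H₀ : Subgroup Γ) : Set Γ) := hz
      rw [Subgroup.normal_mul] at hz'
      obtain ⟨c₁, hc₁, h, hh, rfl⟩ := Set.mem_mul.mp hz'
      have hhP : h ∈ P := by
        have := P.mul_mem (P.inv_mem (hCP hc₁)) hzP
        rwa [inv_mul_cancel_left] at this
      have hh1 : h = 1 := by
        have : h ∈ P ⊓ H₀ := ⟨hhP, hh⟩
        rwa [hcompl.disjoint.eq_bot, Subgroup.mem_bot] at this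
      rw [hh1, mul_one]
      exact hc₁
    haveI := hCcyc
    have hY : Nat.card (X.subgroupOf C) = p := by
      rw [← hXc]
      exact Nat.card_congr (Subgroup.subgroupOfEquivOfLe hXC).toEquiv
    have hz1 : (⟨z, hzC⟩ : C) ^ p = 1 := by
      apply Subtype.ext
      show z ^ p = 1
      rw [← hzp]
      exact pow_orderOf_eq_one z
    have := epp_mem_of_cyclic p hp.pos (X.subgroupOf C) hY ⟨z, hzC⟩ hz1
    exact Subgroup.mem_subgroupOf.mp this

theorem epPure_of (hc : CycStmt.{u}) : EpPureStmt.{u} := by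
  intro G _ _ p _ E P X hSyl hEP hPab hXP hEX hXc c hcP hmax hcX
  obtain ⟨hPE, hPp, hPi⟩ := hSyl
  have hXE : X ≤ E := hXP.trans hPE
  have hPn : (P.subgroupOf E).Normal := Subgroup.normal_subgroupOf_of_le_normalizer hEP
  have hXn : (X.subgroupOf E).Normal := Subgroup.normal_subgroupOf_of_le_normalizer hEX
  have hcE : c ∈ E := hPE hcP
  obtain ⟨H', hidx, ⟨y, hyH, hy⟩, hz⟩ := epp_top hc ↥E p (P.subgroupOf E) (X.subgroupOf E) hPn
    (hPp.comap_subtype) (by
      intro a ha b hb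
      apply Subtype.ext
      exact hPab a (Subgroup.mem_subgroupOf.mp ha) b (Subgroup.mem_subgroupOf.mp hb))
    hPi (by
      intro x hx
      exact Subgroup.mem_subgroupOf.mpr (hXP (Subgroup.mem_subgroupOf.mp hx)))
    hXn (by
      rw [← hXc]
      exact Nat.card_congr (Subgroup.subgroupOfEquivOfLe hXE).toEquiv)
    ⟨c, hcE⟩ (Subgroup.mem_subgroupOf.mpr hcP) (by
      intro x hx
      rw [Subgroup.orderOf_mk, ← Subgroup.orderOf_coe]
      exact hmax x (Subgroup.mem_subgroupOf.mp hx)) (by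
      rw [Subgroup.orderOf_mk]
      exact Subgroup.mem_subgroupOf.mpr (by simpa using hcX))
  refine ⟨H'.map E.subtype, Subgroup.map_subtype_le H', ?_, ?_, ?_⟩
  · intro r hr hrp
    have hrel : (H'.map E.subtype).relIndex E = H'.index := by
      rw [Subgroup.relIndex, ← Subgroup.comap_subtype,
        Subgroup.comap_map_eq_self_of_injective (Subgroup.subtype_injective _)]
    rw [hrel]
    exact hidx r hr hrp
  · refine ⟨(y : G), Subgroup.mem_map_of_mem _ hyH, ?_⟩
    intro x hxE hxp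
    have h1 := hy ⟨x, hxE⟩ (by
      obtain ⟨k, hk⟩ := hxp
      exact ⟨k, by rw [Subgroup.orderOf_mk]; exact hk⟩)
    rwa [Subgroup.orderOf_mk, ← Subgroup.orderOf_coe] at h1
  · rintro _ ⟨z, hzH, rfl⟩ hzp
    have h1 := hz z hzH (by rw [← Subgroup.orderOf_coe]; exact hzp)
    exact Subgroup.mem_subgroupOf.mp h1

end Cfsg.Agent.Lib.Helper8.FT12
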