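import Mathlib
import Cfsg.Agent.Lib.Helper92.FT12Defs

set_option autoImplicit false

/-! S1421 project FT12 (helper92), piece LINA: if the `q`-element `y` (`q` odd) normalizes no
line of `A`, then every power of `y` normalizing some line centralizes `A`. -/

namespace Cfsg.Agent.Lib.Helper8.FT12

open Cfsg Cfsg.Agent.Lib.Helper92.FT

universe u

/-- a fixed-point-free self-map of `q`-power order lives on a set of size divisible by `q` -/
theorem lina_dvd_card {α : Type*} [Fintype α] (q k : ℕ) (hq : q.Prime) (f : α → α)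
    (hf : ∀ x, f^[q ^ k] x = x) (hfix : ∀ x, f x ≠ x) : q ∣ Fintype.card α := by
  classical
  have : Fact q.Prime := ⟨hq⟩
  let F : Function.End α := f
  have hF : F ^ q ^ k = 1 := by
    have h := hom_coe_pow (fun g : Function.End α ↦ (g : α → α)) rfl (fun g h ↦ rfl) F (q ^ k)
    funext x
    exact (congrFun h x).trans (hf x)
  have h := Equiv.Perm.card_fixedPoints_modEq (f := F) hF
  have h0 : Fintype.card ↥(Function.fixedPoints F) = 0 :=
    Fintype.card_eq_zero_iff.mpr ⟨fun x => hfix x.1 x.2⟩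
  rw [h0] at h
  exact (Nat.modEq_zero_iff_dvd).mp h

section

variable {G : Type u} [Group G] [Finite G] {p : ℕ}

theorem lina_card_zpowers (hp : p.Prime) {a : G} (ha : a ^ p = 1) (ha1 : a ≠ 1) :
    Nat.card (Subgroup.zpowers a) = p := by
  have : Fact p.Prime := ⟨hp⟩
  rw [Nat.card_zpowers]
  exact orderOf_eq_prime ha ha1

theorem lina_zpowers_eq (hp : p.Prime) {X : Subgroup G} (hX : Nat.card X = p) {a : G}
    (haX : a ∈ X) (ha : a ^ p = 1) (ha1 : a ≠ 1) : Subgroup.zpowers a = X := by
  apply Subgroup.eq_of_le_of_card_ge ((Subgroup.zpowers_le).mpr haX)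
  rw [lina_card_zpowers hp ha ha1, hX]

theorem lina_inf_eq_bot (hp : p.Prime) {X Y : Subgroup G} (hX : Nat.card X = p)
    (hY : Nat.card Y = p) (hne : X ≠ Y) : X ⊓ Y = ⊥ := by
  have : Fact (Nat.card X).Prime := ⟨hX.symm ▸ hp⟩
  rcases Subgroup.eq_bot_or_eq_top_of_prime_card (Y.subgroupOf X) with h | h
  · rw [Subgroup.subgroupOf_eq_bot] at h
    exact disjoint_iff.mp h.symm
  · rw [Subgroup.subgroupOf_eq_top] at h
    exact absurd (Subgroup.eq_of_le_of_card_ge h (by rw [hX, hY])) hne

open Classical in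
/-- the lines of `A` -/
noncomputable def linaLines (A : Subgroup G) (p : ℕ) : Finset (Subgroup G) :=
  haveI : Fintype (Subgroup G) := Fintype.ofFinite _
  Finset.univ.filter (fun X => X ≤ A ∧ Nat.card X = p)

theorem lina_mem_lines {A X : Subgroup G} :
    X ∈ linaLines A p ↔ X ≤ A ∧ Nat.card X = p := by
  classical
  simp only [linaLines, Finset.mem_filter, Finset.mem_univ, true_and]

open Classical in
/-- the nonidentity elements of `X` -/
noncomputable def linaPts (X : Subgroup G) : Finset G :=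
  haveI : Fintype G := Fintype.ofFinite _
  Finset.univ.filter (fun a => a ∈ X ∧ a ≠ 1)

theorem lina_mem_pts {X : Subgroup G} {a : G} : a ∈ linaPts X ↔ a ∈ X ∧ a ≠ 1 := by
  classical
  simp only [linaPts, Finset.mem_filter, Finset.mem_univ, true_and]

theorem lina_card_pts (X : Subgroup G) : (linaPts X).card + 1 = Nat.card X := by
  classical
  have hins : insert (1 : G) (linaPts X) = ((X : Set G).toFinite.toFinset) := by
    ext a
    simp only [Finset.mem_insert, lina_mem_pts, Set.Finite.mem_toFinset, SetLike.mem_coe]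
    constructor
    · rintro (rfl | h)
      · exact X.one_mem
      · exact h.1
    · intro h
      by_cases h1 : a = 1
      · exact Or.inl h1
      · exact Or.inr ⟨h, h1⟩
  have h1 : (1 : G) ∉ linaPts X := by
    rw [lina_mem_pts]
    exact fun h => h.2 rfl
  rw [← Finset.card_insert_of_notMem h1, hins, ← Set.ncard_eq_toFinset_card (X : Set G)]
  exact (Nat.card_coe_set_eq (X : Set G)).symm

theorem lina_card_lines (hp : p.Prime) {A : Subgroup G} (hA : IsElementaryAbelian p A)
    (hA2 : Nat.card A = p ^ 2) : (linaLines A p).card = p + 1 := by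
  classical
  have hfib : ∀ X ∈ linaLines A p,
      ((linaPts A).filter (fun a => Subgroup.zpowers a = X)).card = p - 1 := by
    intro X hX
    rw [lina_mem_lines] at hX
    have hEq : (linaPts A).filter (fun a => Subgroup.zpowers a = X) = linaPts X := by
      ext a
      simp only [Finset.mem_filter, lina_mem_pts]
      constructor
      · rintro ⟨⟨-, ha1⟩, rfl⟩
        exact ⟨Subgroup.mem_zpowers a, ha1⟩
      · rintro ⟨haX, ha1⟩
        exact ⟨⟨hX.1 haX, ha1⟩, lina_zpowers_eq hp hX.2 haX (hA.2 a (hX.1 haX)) ha1⟩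
    rw [hEq]
    have h := lina_card_pts X
    rw [hX.2] at h
    omega
  have hmaps : ∀ a ∈ linaPts A, Subgroup.zpowers a ∈ linaLines A p := by
    intro a ha
    rw [lina_mem_pts] at ha
    rw [lina_mem_lines]
    exact ⟨(Subgroup.zpowers_le).mpr ha.1, lina_card_zpowers hp (hA.2 a ha.1) ha.2⟩
  have hsum := Finset.card_eq_sum_card_fiberwise hmaps
  rw [Finset.sum_congr rfl hfib, Finset.sum_const, smul_eq_mul] at hsum
  have hA' := lina_card_pts A
  rw [hA2, hsum] at hA'
  have hp2 : 2 ≤ p := hp.two_le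
  obtain ⟨r, rfl⟩ : ∃ r, p = r + 1 := ⟨p - 1, by omega⟩
  simp only [Nat.add_sub_cancel] at hA'
  have h2 : (linaLines A (r + 1)).card * r = (r + 1 + 1) * r := by nlinarith
  exact Nat.eq_of_mul_eq_mul_right (by omega) h2

theorem lina_map_mem {A : Subgroup G} {g : G} (hg : g ∈ Subgroup.normalizer (A : Set G))
    {X : Subgroup G} (hX : X ∈ linaLines A p) :
    X.map (MulAut.conj g).toMonoidHom ∈ linaLines A p := by
  rw [lina_mem_lines] at hX ⊢
  refine ⟨?_, ?_⟩
  · rintro _ ⟨x, hx, rfl⟩
    exact (Subgroup.mem_normalizer_iff.mp hg x).mp (hX.1 hx)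
  · rw [Subgroup.card_map_of_injective (MulAut.conj g).injective]
    exact hX.2

theorem lina_mem_normalizer_of_map_eq {g : G} {X : Subgroup G}
    (h : X.map (MulAut.conj g).toMonoidHom = X) : g ∈ Subgroup.normalizer (X : Set G) := by
  rw [Subgroup.mem_normalizer_iff]
  intro x
  constructor
  · intro hx
    have h1 : (MulAut.conj g).toMonoidHom x ∈ X.map (MulAut.conj g).toMonoidHom :=
      Subgroup.mem_map_of_mem _ hx
    rw [h] at h1
    exact h1
  · intro hx
    have hx' : g * x * g⁻¹ ∈ X.map (MulAut.conj g).toMonoidHom := by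
      rw [h]
      exact hx
    obtain ⟨x', hx'', he⟩ := hx'
    have hxx : x' = x := (MulAut.conj g).injective he
    exact hxx ▸ hx''

end

theorem linA_of (h3 : Lin3Stmt.{u}) (ho : LinOddStmt.{u}) : LinAStmt.{u} := by
  intro G _ _ p _ A hA hA2 y hy q hq hq2 hyq hno m hm
  obtain ⟨k, hk⟩ := hyq
  obtain ⟨X, hXA, hXp, hzX⟩ := hm
  have hp := (Fact.out : p.Prime)
  have hzA : y ^ m ∈ Subgroup.normalizer (A : Set G) := Subgroup.pow_mem _ hy m
  have hodd : Odd (orderOf y) := by
    rw [hk]
    exact (hq.odd_of_ne_two hq2).pow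
  -- Step 1: `z = y ^ m` normalizes every line
  have hzall : ∀ L : Subgroup G, L ≤ A → Nat.card L = p →
      y ^ m ∈ Subgroup.normalizer (L : Set G) := by
    intro L hLA hLp
    by_contra hzL
    refine hno X hXA hXp (ho G p A hA hA2 (y ^ m) hzA y hy hodd ?_ X L hXA hXp hLA hLp hzX hzL)
    have h1 : y * y ^ m * y⁻¹ * (y ^ m)⁻¹ = 1 := by
      rw [← pow_succ', pow_succ, mul_inv_cancel_right, mul_inv_cancel]
    rw [h1]
    exact Subgroup.one_mem _
  by_contra hzC
  -- `z` fixes no nonidentity element of `A`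
  have hfpf : ∀ a ∈ A, a ≠ 1 → y ^ m * a * (y ^ m)⁻¹ ≠ a := by
    intro a haA ha1 hfix
    apply hzC
    rw [Subgroup.mem_centralizer_iff]
    intro b hbA
    suffices hb : y ^ m * b * (y ^ m)⁻¹ = b by
      calc b * y ^ m = (y ^ m * b * (y ^ m)⁻¹) * y ^ m := by rw [hb]
        _ = y ^ m * b := by group
    by_cases hba : b ∈ Subgroup.zpowers a
    · obtain ⟨i, rfl⟩ := hba
      show y ^ m * a ^ i * (y ^ m)⁻¹ = a ^ i
      rw [← conj_zpow, hfix]
    · have hb1 : b ≠ 1 := fun h => hba (h ▸ Subgroup.one_mem _)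
      have hab1 : a * b ≠ 1 := by
        intro h
        apply hba
        have : b = a⁻¹ := (eq_inv_of_mul_eq_one_right h)
        rw [this]
        exact Subgroup.inv_mem _ (Subgroup.mem_zpowers a)
      have habA : a * b ∈ A := A.mul_mem haA hbA
      have hXb : Nat.card (Subgroup.zpowers b) = p := lina_card_zpowers hp (hA.2 b hbA) hb1
      have hXab : Nat.card (Subgroup.zpowers (a * b)) = p :=
        lina_card_zpowers hp (hA.2 _ habA) hab1
      have hne : Subgroup.zpowers b ≠ Subgroup.zpowers (a * b) := by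
        intro h
        have h1 : a * b ∈ Subgroup.zpowers b := h ▸ Subgroup.mem_zpowers (a * b)
        have h2 : a ∈ Subgroup.zpowers b := by
          have := Subgroup.mul_mem _ h1 (Subgroup.inv_mem _ (Subgroup.mem_zpowers b))
          rwa [mul_inv_cancel_right] at this
        have h3' : Subgroup.zpowers a = Subgroup.zpowers b :=
          lina_zpowers_eq hp hXb h2 (hA.2 a haA) ha1
        exact hba (h3' ▸ Subgroup.mem_zpowers b)
      have hz1 := hzall _ ((Subgroup.zpowers_le).mpr hbA) hXb
      have hz2 := hzall _ ((Subgroup.zpowers_le).mpr habA) hXab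
      have hc1 : b⁻¹ * (y ^ m * b * (y ^ m)⁻¹) ∈ Subgroup.zpowers b :=
        Subgroup.mul_mem _ (Subgroup.inv_mem _ (Subgroup.mem_zpowers b))
          ((Subgroup.mem_normalizer_iff.mp hz1 b).mp (Subgroup.mem_zpowers b))
      have hc2 : b⁻¹ * (y ^ m * b * (y ^ m)⁻¹) ∈ Subgroup.zpowers (a * b) := by
        have h1 : (a * b)⁻¹ * (y ^ m * (a * b) * (y ^ m)⁻¹) ∈ Subgroup.zpowers (a * b) :=
          Subgroup.mul_mem _ (Subgroup.inv_mem _ (Subgroup.mem_zpowers (a * b)))
            ((Subgroup.mem_normalizer_iff.mp hz2 (a * b)).mp (Subgroup.mem_zpowers (a * b)))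
        have h2 : (a * b)⁻¹ * (y ^ m * (a * b) * (y ^ m)⁻¹) =
            b⁻¹ * (y ^ m * b * (y ^ m)⁻¹) := by
          have h3' : y ^ m * (a * b) * (y ^ m)⁻¹ =
              (y ^ m * a * (y ^ m)⁻¹) * (y ^ m * b * (y ^ m)⁻¹) := by group
          rw [h3', hfix]
          group
        rw [← h2]
        exact h1
      have hc : b⁻¹ * (y ^ m * b * (y ^ m)⁻¹) ∈
          Subgroup.zpowers b ⊓ Subgroup.zpowers (a * b) := ⟨hc1, hc2⟩
      rw [lina_inf_eq_bot hp hXb hXab hne, Subgroup.mem_bot] at hc
      exact (inv_mul_eq_one.mp hc).symm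
  have hzq : (y ^ m) ^ (q ^ k) = 1 := by
    rw [← pow_mul, mul_comm, pow_mul, ← hk, pow_orderOf_eq_one, one_pow]
  have hyqk : y ^ (q ^ k) = 1 := by
    rw [← hk, pow_orderOf_eq_one]
  -- `q ∣ p - 1`
  have hd1 : q ∣ p - 1 := by
    have hmem : ∀ a : ↥(linaPts X), y ^ m * a.1 * (y ^ m)⁻¹ ∈ linaPts X := by
      intro a
      have ha := lina_mem_pts.mp a.2
      rw [lina_mem_pts]
      refine ⟨(Subgroup.mem_normalizer_iff.mp hzX a.1).mp ha.1, fun h => ha.2 ?_⟩
      have h' : y ^ m * a.1 * (y ^ m)⁻¹ = y ^ m * 1 * (y ^ m)⁻¹ := by rw [h]; group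
      exact mul_left_cancel (mul_right_cancel h')
    have hiter : ∀ (n : ℕ) (a : ↥(linaPts X)),
        (((fun a : ↥(linaPts X) => (⟨y ^ m * a.1 * (y ^ m)⁻¹, hmem a⟩ : ↥(linaPts X)))^[n] a :
          ↥(linaPts X)) : G) = (y ^ m) ^ n * a.1 * ((y ^ m) ^ n)⁻¹ := by
      intro n
      induction n with
      | zero => intro a; simp
      | succ n ih =>
        intro a
        rw [Function.iterate_succ_apply']
        show y ^ m * _ * (y ^ m)⁻¹ = _
        rw [ih, pow_succ']
        group
    have h := lina_dvd_card q k hq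
      (fun a : ↥(linaPts X) => (⟨y ^ m * a.1 * (y ^ m)⁻¹, hmem a⟩ : ↥(linaPts X)))
      (fun a => Subtype.ext (by rw [hiter, hzq]; group))
      (fun a hfix => by
        have ha := lina_mem_pts.mp a.2
        exact hfpf a.1 (hXA ha.1) ha.2 (congrArg Subtype.val hfix))
    rw [Fintype.card_coe] at h
    have hc := lina_card_pts X
    rw [hXp] at hc
    have : (linaPts X).card = p - 1 := by omega
    rwa [this] at h
  -- `q ∣ p + 1`
  have hd2 : q ∣ p + 1 := by
    have hiter : ∀ (n : ℕ) (L : ↥(linaLines A p)),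
        (((fun L : ↥(linaLines A p) =>
            (⟨L.1.map (MulAut.conj y).toMonoidHom, lina_map_mem hy L.2⟩ : ↥(linaLines A p)))^[n] L :
          ↥(linaLines A p)) : Subgroup G) = L.1.map (MulAut.conj (y ^ n)).toMonoidHom := by
      intro n
      induction n with
      | zero =>
        intro L
        ext x
        simp
      | succ n ih =>
        intro L
        rw [Function.iterate_succ_apply']
        show Subgroup.map (MulAut.conj y).toMonoidHom _ = _
        rw [ih, Subgroup.map_map]
        congr 1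
        ext x
        simp [pow_succ', mul_assoc]
    have h := lina_dvd_card q k hq
      (fun L : ↥(linaLines A p) =>
        (⟨L.1.map (MulAut.conj y).toMonoidHom, lina_map_mem hy L.2⟩ : ↥(linaLines A p)))
      (fun L => Subtype.ext (by
        rw [hiter, hyqk]
        ext x
        simp))
      (fun L hfix => by
        have hL := lina_mem_lines.mp L.2
        exact hno L.1 hL.1 hL.2 (lina_mem_normalizer_of_map_eq (congrArg Subtype.val hfix)))
    rw [Fintype.card_coe, lina_card_lines hp hA hA2] at h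
    exact h
  have hp1 : 1 ≤ p := hp.one_lt.le
  have h2 : q ∣ 2 := by
    have := Nat.dvd_sub hd2 hd1
    have he : p + 1 - (p - 1) = 2 := by omega
    rwa [he] at this
  exact hq2 ((Nat.prime_dvd_prime_iff_eq hq Nat.prime_two).mp h2)

end Cfsg.Agent.Lib.Helper8.FT12
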