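import Cfsg.Agent.Lib.Helper98.T73Defs

/-!
# Project H74 (S5974, helper98), assembly piece LCNT

`lcnt_typ_of`: the statement of LCNT (`lcnt_typ`) with the sibling pieces EXC (`subtyp_sub`),
TOP (`subtyp_le`), CNTG (`exists_qi_of_dvd_card_typ`), FIXC (`card_typ_modEq_fixed`), GSTRUCT
(`g_struct`) and GLUEG (`glue_iso`) as hypotheses, each with exactly the type of the sibling
theorem, so that
`lcnt_typ_of (@subtyp_sub F _ _) (@subtyp_le F _ _) (@exists_qi_of_dvd_card_typ F _ _)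
(@card_typ_modEq_fixed F _ _) (@g_struct F _ _) (@glue_iso F _ _)` is LCNT.
-/

set_option autoImplicit false
set_option linter.unusedVariables false

namespace Cfsg.Agent.Lib.Helper98.H74

open Cfsg.Agent.Lib.Helper47 Cfsg.Agent.Lib.Helper98.T73 Module Polynomial

universe u

variable {F : Type u} [Field F] [Fintype F] {V : Type u} [AddCommGroup V] [Module F V]
  [FiniteDimensional F V] {Q : V → F} {B : V → V → F}

/-- a typed nondegenerate space is a typed subspace of itself -/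
theorem lcnt_top (hnd : Nondeg B) (e : ℕ) (hdim : finrank F V = 2 * e + 2) (η : ℤ)
    (htyp : IsTyp Q e η) : SubTyp Q B ⊤ e η := by
  refine ⟨?_, ?_, ?_⟩
  · intro x hx
    apply Subtype.ext
    apply hnd
    intro y
    exact hx ⟨y, Submodule.mem_top⟩
  · rw [finrank_top]; exact hdim
  · exact IsTyp.of_equiv (Submodule.topEquiv (R := F) (M := V)).symm.toEquiv (fun v => rfl) htyp

set_option maxHeartbeats 2000000 in
/-- LCNT from the sibling pieces. -/
theorem lcnt_typ_of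
    (EXC : ∀ {V : Type u} [AddCommGroup V] [Module F V] [FiniteDimensional F V] {Q : V → F}
      {B : V → V → F} (hf : QFacts F) (hQ : IsQuad Q B) (K : Submodule F V) (e : ℕ) (η : ℤ)
      (hK : SubTyp Q B K e η) (k : ℕ) (τ : ℤ) (hτ : τ = 1 ∨ τ = -1)
      (hk : k < e ∨ (k = e ∧ τ = η)), ∃ W : Submodule F V, W ≤ K ∧ SubTyp Q B W k τ)
    (TOP : ∀ {V : Type u} [AddCommGroup V] [Module F V] [FiniteDimensional F V] {Q : V → F}
      {B : V → V → F} (hQ : IsQuad Q B) (K W : Submodule F V) (e k : ℕ) (η τ : ℤ)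
      (hK : SubTyp Q B K e η) (hW : SubTyp Q B W k τ) (hWK : W ≤ K),
      k ≤ e ∧ (k = e → τ = η))
    (CNTG : ∀ {V : Type u} [AddCommGroup V] [Module F V] [FiniteDimensional F V] {Q : V → F}
      {B : V → V → F} (hf : QFacts F) (hQ : IsQuad Q B) (hnd : Nondeg B) (d : ℕ)
      (hdim : finrank F V = 2 * d) (ε : ℤ) (htyp : IsTyp Q (d - 1) ε) (k : ℕ) (τ : ℤ)
      (hne : ∃ W : Submodule F V, SubTyp Q B W k τ) (r : ℕ) (hr : r.Prime)
      (hdvd : r ∣ Nat.card {W : Submodule F V // SubTyp Q B W k τ}),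
      ∃ g : Module.End F V, QI Q g ∧ g ^ r = 1 ∧ g ≠ 1)
    (FIXC : ∀ {V : Type u} [AddCommGroup V] [Module F V] [FiniteDimensional F V] {Q : V → F}
      {B : V → V → F} (hf : QFacts F) (hQ : IsQuad Q B) (hnd : Nondeg B) (p : ℕ)
      [Fact p.Prime] [CharP F p] (r : ℕ) (hr : r.Prime) (hr2 : r ≠ 2) (hrp : r ≠ p)
      (g : Module.End F V) (hgQ : QI Q g) (hg : g ^ r = 1) (k : ℕ) (τ : ℤ)
      (hsmall : 2 * k + 2 < (if Even (orderOf ((Fintype.card F : ℕ) : ZMod r))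
            then orderOf ((Fintype.card F : ℕ) : ZMod r)
            else 2 * orderOf ((Fintype.card F : ℕ) : ZMod r))),
      (∀ W : Submodule F V, SubTyp Q B W k τ → W.map g ≤ W → W ≤ LinearMap.ker (g - 1)) ∧
      Nat.card {W : Submodule F V // SubTyp Q B W k τ} ≡
        Nat.card {W : Submodule F ↥(LinearMap.ker (g - 1)) //
          SubTyp (fun w : ↥(LinearMap.ker (g - 1)) => Q (w : V))
            (resForm B (LinearMap.ker (g - 1))) W k τ} [MOD r])
    (GSTRUCT : ∀ {V : Type u} [AddCommGroup V] [Module F V] [FiniteDimensional F V] {Q : V → F}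
      {B : V → V → F} (hf : QFacts F) (hQ : IsQuad Q B) (hnd : Nondeg B) (d : ℕ) (hd : 1 ≤ d)
      (hdim : finrank F V = 2 * d) (ε : ℤ) (hε : ε = 1 ∨ ε = -1) (htyp : IsTyp Q (d - 1) ε)
      (p : ℕ) [Fact p.Prime] [CharP F p] (r : ℕ) (hr : r.Prime) (hr2 : r ≠ 2) (hrp : r ≠ p)
      (g : Module.End F V) (hgQ : QI Q g) (hg : g ^ r = 1) (hg1 : g ≠ 1),
      ∃ A : ℕ, Valid ε (orderOf ((Fintype.card F : ℕ) : ZMod r)) d A ∧
        finrank F (LinearMap.range (g - 1)) = orderOf ((Fintype.card F : ℕ) : ZMod r) * A ∧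
        finrank F (LinearMap.ker (g - 1))
          = 2 * d - orderOf ((Fintype.card F : ℕ) : ZMod r) * A ∧
        Nondeg (resForm B (LinearMap.range (g - 1))) ∧
        (∀ x ∈ LinearMap.ker (g - 1), ∀ y ∈ LinearMap.range (g - 1), B x y = 0) ∧
        ∀ e : ℕ, 2 * d - orderOf ((Fintype.card F : ℕ) : ZMod r) * A = 2 * e + 2 →
          SubTyp Q B (LinearMap.ker (g - 1)) e
            (ε * sgn (orderOf ((Fintype.card F : ℕ) : ZMod r)) A))
    (GLUEG : ∀ {V : Type u} [AddCommGroup V] [Module F V] [FiniteDimensional F V] {Q : V → F}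
      {B : V → V → F} (hQ : IsQuad Q B) (hnd : Nondeg B) (p : ℕ) [Fact p.Prime] [CharP F p]
      (r : ℕ) (hr : r.Prime) (hrp : r ≠ p) (g : Module.End F V) (hgQ : QI Q g)
      (hg : g ^ r = 1) (h : Module.End F ↥(LinearMap.ker (g - 1)))
      (hhQ : QI (fun w : ↥(LinearMap.ker (g - 1)) => Q (w : V)) h) (hh : h ^ r = 1)
      (hh1 : h ≠ 1),
      ∃ g' : Module.End F V, QI Q g' ∧ g' ^ r = 1 ∧ g' ≠ 1 ∧
        finrank F (LinearMap.ker (g' - 1)) < finrank F (LinearMap.ker (g - 1)))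
    (hf : QFacts F) (hQ : IsQuad Q B) (hnd : Nondeg B) (d : ℕ) (hd : 2 ≤ d)
    (hdim : finrank F V = 2 * d) (ε : ℤ) (hε : ε = 1 ∨ ε = -1) (htyp : IsTyp Q (d - 1) ε)
    (p : ℕ) [Fact p.Prime] [CharP F p] (r : ℕ) (hr : r.Prime) (hr2 : r ≠ 2) (hrp : r ≠ p)
    (k : ℕ) (τ : ℤ) (hτ : τ = 1 ∨ τ = -1) (hk : k + 2 ≤ d)
    (hsmall : 2 * k + 2 < (if Even (orderOf ((Fintype.card F : ℕ) : ZMod r))
          then orderOf ((Fintype.card F : ℕ) : ZMod r)
          else 2 * orderOf ((Fintype.card F : ℕ) : ZMod r)))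
    (hrΩ : r ∣ Nat.card {W : Submodule F V // SubTyp Q B W k τ})
    (hall : ∀ g : Module.End F V, QI Q g → g ^ r = 1 → g ≠ 1 →
      ∃ W : Submodule F V, SubTyp Q B W k τ ∧ W.map g ≤ W) : False := by
  classical
  -- a typed subspace and an isometry of order `r`
  have htop : SubTyp Q B ⊤ (d - 1) ε := lcnt_top hnd (d - 1) (by omega) ε htyp
  obtain ⟨W₀, -, hW₀⟩ := EXC hf hQ ⊤ (d - 1) ε htop k τ hτ (Or.inl (by omega))
  obtain ⟨g₀, hg₀Q, hg₀r, hg₀1⟩ := CNTG hf hQ hnd d hdim ε htyp k τ ⟨W₀, hW₀⟩ r hr hrΩ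
  -- an isometry of order `r` with fixed space of minimal dimension
  have hex : ∃ n, ∃ g : Module.End F V, QI Q g ∧ g ^ r = 1 ∧ g ≠ 1 ∧
      finrank F (LinearMap.ker (g - 1)) = n := ⟨_, g₀, hg₀Q, hg₀r, hg₀1, rfl⟩
  obtain ⟨g, hgQ, hgr, hg1, hgn⟩ := Nat.find_spec hex
  have hmin : ∀ g' : Module.End F V, QI Q g' → g' ^ r = 1 → g' ≠ 1 →
      finrank F (LinearMap.ker (g - 1)) ≤ finrank F (LinearMap.ker (g' - 1)) := by
    intro g' h1 h2 h3
    rw [hgn]
    exact Nat.find_min' hex ⟨g', h1, h2, h3, rfl⟩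
  -- an invariant typed subspace lies in the fixed space
  obtain ⟨hfixa, hfixb⟩ := FIXC hf hQ hnd p r hr hr2 hrp g hgQ hgr k τ hsmall
  obtain ⟨W, hW, hWg⟩ := hall g hgQ hgr hg1
  have hWC : W ≤ LinearMap.ker (g - 1) := hfixa W hW hWg
  have hdvdC : r ∣ Nat.card {W : Submodule F ↥(LinearMap.ker (g - 1)) //
      SubTyp (fun w : ↥(LinearMap.ker (g - 1)) => Q (w : V))
        (resForm B (LinearMap.ker (g - 1))) W k τ} :=
    Nat.modEq_zero_iff_dvd.mp (hfixb.symm.trans (Nat.modEq_zero_iff_dvd.mpr hrΩ))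
  -- the fixed space is a typed space
  obtain ⟨A, hA, -, hker, -, -, hsub⟩ :=
    GSTRUCT hf hQ hnd d (by omega) hdim ε hε htyp p r hr hr2 hrp g hgQ hgr hg1
  obtain ⟨i, hi⟩ : ∃ i, i = orderOf ((Fintype.card F : ℕ) : ZMod r) := ⟨_, rfl⟩
  rw [← hi] at hA hker hsub
  obtain ⟨hA1, hA2, hA3, hA4⟩ := hA
  have hevA : Even (i * A) := by
    by_cases hev : Even i
    · exact hev.mul_right A
    · exact (hA3 (Nat.not_even_iff_odd.mp hev)).mul_left i
  obtain ⟨c, hc⟩ := hevA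
  have hWdim : finrank F W = 2 * k + 2 := hW.2.1
  have hle : finrank F W ≤ finrank F (LinearMap.ker (g - 1)) := Submodule.finrank_mono hWC
  obtain ⟨e, he⟩ : ∃ e : ℕ, 2 * d - i * A = 2 * e + 2 := ⟨d - c - 1, by omega⟩
  have hC := hsub e he
  have hCnd := hC.1
  have hCdim := hC.2.1
  have hCtyp := hC.2.2
  have hQC := hQ.res (LinearMap.ker (g - 1))
  -- a typed subspace of the fixed space
  have hke := TOP hQ (LinearMap.ker (g - 1)) W e k _ τ hC hW hWC
  have hke' : k < e ∨ (k = e ∧ τ = ε * sgn i A) := by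
    rcases Nat.lt_or_ge k e with h | h
    · exact Or.inl h
    · have : k = e := le_antisymm hke.1 h
      exact Or.inr ⟨this, hke.2 this⟩
  have htopC := lcnt_top hCnd e hCdim _ hCtyp
  obtain ⟨W', -, hW'⟩ := EXC hf hQC ⊤ e _ htopC k τ hτ hke'
  -- an isometry of order `r` of the fixed space, glued to `g`
  obtain ⟨h, hhQ, hhr, hh1⟩ := CNTG hf hQC hCnd (e + 1) (by rw [hCdim]; ring) _
    (by simpa using hCtyp) k τ ⟨W', hW'⟩ r hr hdvdC
  obtain ⟨g', hg'Q, hg'r, hg'1, hlt⟩ := GLUEG hQ hnd p r hr hrp g hgQ hgr h hhQ hhr hh1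
  have := hmin g' hg'Q hg'r hg'1
  omega

end Cfsg.Agent.Lib.Helper98.H74
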