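import Mathlib
import Cfsg.Prelude.Def_GeometricClasses
import Cfsg.Agent.Lib.Helper47.PrimeOrd

/-! S5981 (helper96), piece EXISTSSL: an element of `SL_n` of order dividing `r` with prescribed
characteristic polynomial `(X - 1) ^ c * s.prod`, not scalar. -/

set_option autoImplicit false

namespace Cfsg.Agent.Lib.Helper8.Oq

open Polynomial Matrix
open Cfsg.Agent.Lib.Helper47

theorem existssl_eq_one {F : Type*} [Field F] [Fintype F] (r : ℕ) (hr : r.Prime)
    (hrq : ¬ r ∣ Fintype.card F - 1) (a : F) (ha : a ^ r = 1) : a = 1 := by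
  have ha0 : a ≠ 0 := by
    rintro rfl
    rw [zero_pow hr.ne_zero] at ha
    exact zero_ne_one ha
  have h1 := FiniteField.pow_card_sub_one_eq_one a ha0
  have h2 : a ^ (r.gcd (Fintype.card F - 1)) = 1 := pow_gcd_eq_one.mpr ⟨ha, h1⟩
  have h3 : r.gcd (Fintype.card F - 1) = 1 := (Nat.Prime.coprime_iff_not_dvd hr).mpr hrq
  rwa [h3, pow_one] at h2

-- PIECE EXISTSSL
theorem exists_sl_of_factors {F : Type*} [Field F] [Fintype F] {p : ℕ} [Fact p.Prime] [CharP F p]
    (n r : ℕ) (hr : r.Prime) (hrp : r ≠ p) (hrq : ¬ r ∣ Fintype.card F - 1)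
    (c : ℕ) (s : Multiset F[X]) (hs : ∀ f ∈ s, IsCycFactor r f) (hs0 : s ≠ 0)
    (hdeg : c + orderOf ((Fintype.card F : ℕ) : ZMod r) * Multiset.card s = n) :
    ∃ x : GL (Fin n) F, x ∈ Cfsg.Geo.specialLinear (Fin n) F ∧ x ^ r = 1 ∧
      (x : Matrix (Fin n) (Fin n) F).charpoly = (X - 1) ^ c * s.prod ∧
      ∀ z : F, (x : Matrix (Fin n) (Fin n) F) ≠ z • (1 : Matrix (Fin n) (Fin n) F) := by
  classical
  have hdeg' : ((X - 1 : F[X]) ^ c * s.prod).natDegree = n := by
    rw [natDegree_cyc_prod c s (fun f hf =>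
      ⟨(hs f hf).1, IsCycFactor.natDegree_eq rfl hr hrp (hs f hf)⟩)]
    exact hdeg
  obtain ⟨M, hMc, hMr⟩ := exists_matrix_of_factors p hr c s hs hdeg'
  have hr1 : r - 1 + 1 = r := Nat.sub_add_cancel hr.pos
  have hM1 : M ≠ 1 := by
    rintro rfl
    rw [Matrix.charpoly_one, Fintype.card_fin] at hMc
    have h1 := normalizedFactors_cyc_prod p hr hrp n (0 : Multiset F[X]) (by simp)
    have h2 := normalizedFactors_cyc_prod p hr hrp c s hs
    rw [← hMc] at h2
    rw [Multiset.prod_zero, mul_one] at h1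
    rw [h1] at h2
    exact hs0 h2.symm
  have hdet : M.det = 1 := by
    apply existssl_eq_one r hr hrq
    rw [← Matrix.det_pow, hMr, Matrix.det_one]
  have hnpos : 0 < n := by
    obtain ⟨f, hf⟩ := Multiset.exists_mem_of_ne_zero hs0
    have hi : 0 < orderOf ((Fintype.card F : ℕ) : ZMod r) := by
      rw [← IsCycFactor.natDegree_eq rfl hr hrp (hs f hf)]
      exact (hs f hf).2.1.natDegree_pos
    have hcard : 0 < Multiset.card s := Multiset.card_pos.mpr hs0
    have := Nat.mul_pos hi hcard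
    omega
  refine ⟨⟨M, M ^ (r - 1), by rw [← pow_succ', hr1, hMr], by rw [← pow_succ, hr1, hMr]⟩,
    ?_, ?_, hMc, ?_⟩
  · refine (MonoidHom.mem_ker
      (f := (Matrix.GeneralLinearGroup.det : GL (Fin n) F →* Fˣ))).mpr (Units.ext ?_)
    exact hdet
  · apply Units.ext
    rw [Units.val_pow_eq_pow_val]
    exact hMr
  · intro z hz
    apply hM1
    have hz' : M = z • (1 : Matrix (Fin n) (Fin n) F) := hz
    have hzr : z ^ r = 1 := by
      have h1 := hMr
      rw [hz', _root_.smul_pow, one_pow] at h1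
      have h2 := congrFun (congrFun h1 ⟨0, hnpos⟩) ⟨0, hnpos⟩
      simpa using h2
    rw [hz', existssl_eq_one r hr hrq z hzr, one_smul]

end Cfsg.Agent.Lib.Helper8.Oq
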