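import Mathlib
import Cfsg.Agent.Lib.Helper34.Rank2e

/-!
# S5876, piece GT2 (helper80): a finite solvable group has an abelian normal subgroup `M` such
that every `g ≠ 1` lies in `M`, or has a commutator in `M \ 1`, or a double commutator in `M \ 1`

Here with piece GT1 as an explicit hypothesis (`exists_abelian_normal_comm_chain_of`).
-/

set_option autoImplicit false

open Cfsg

namespace Cfsg.Agent.Lib.Helper8

/-- PIECE GT2 of S5876, with the statement of PIECE GT1 (for the group `G`) as a hypothesis -/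
theorem exists_abelian_normal_comm_chain_of {G : Type*} [Group G] [Finite G]
    [Group.IsSolvable G]
    (hGT1 : ∀ (N M : Subgroup G), N.Normal → M.Normal → Group.IsNilpotent ↥N → M ≤ N →
      (∀ a ∈ M, ∀ b ∈ M, a * b = b * a) →
      (∀ B : Subgroup G, B.Normal → M ≤ B → B ≤ N → (∀ a ∈ B, ∀ b ∈ B, a * b = b * a) →
        B = M) →
      ∀ h : G, h ∈ N → h ∉ M → ∃ y ∈ N, h * y * h⁻¹ * y⁻¹ ∈ M ∧ h * y * h⁻¹ * y⁻¹ ≠ 1) :
    ∃ M : Subgroup G, M.Normal ∧ (∀ a ∈ M, ∀ b ∈ M, a * b = b * a) ∧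
      ∀ g : G, g ≠ 1 →
        g ∈ M ∨
        (∃ x : G, g * x * g⁻¹ * x⁻¹ ∈ M ∧ g * x * g⁻¹ * x⁻¹ ≠ 1) ∨
        (∃ x y : G, (g * x * g⁻¹ * x⁻¹) * y * (g * x * g⁻¹ * x⁻¹)⁻¹ * y⁻¹ ∈ M ∧
           (g * x * g⁻¹ * x⁻¹) * y * (g * x * g⁻¹ * x⁻¹)⁻¹ * y⁻¹ ≠ 1) := by
  have hNn : (fittingSubgroup G).Normal := Cfsg.Agent.Lib.Helper30.fitting_normal
  have hNnil : Group.IsNilpotent ↥(fittingSubgroup G) :=
    Cfsg.Agent.Lib.Helper30.fitting_nilpotent
  have hCN : Subgroup.centralizer (fittingSubgroup G : Set G) ≤ fittingSubgroup G :=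
    Cfsg.Agent.Lib.Helper34.solv_centralizer_fitting_le
  obtain ⟨M, -, hMp, hMmax⟩ := Finite.exists_le_maximal
    (p := fun B : Subgroup G =>
      B.Normal ∧ B ≤ fittingSubgroup G ∧ ∀ a ∈ B, ∀ b ∈ B, a * b = b * a)
    (a := ⊥) ⟨inferInstance, bot_le, by
      intro a ha b hb
      rw [Subgroup.mem_bot] at ha hb
      rw [ha, hb]⟩
  obtain ⟨hMn, hMN, hMab⟩ := hMp
  have hmax : ∀ B : Subgroup G, B.Normal → M ≤ B → B ≤ fittingSubgroup G →
      (∀ a ∈ B, ∀ b ∈ B, a * b = b * a) → B = M :=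
    fun B hBn hMB hBN hBab => le_antisymm (hMmax ⟨hBn, hBN, hBab⟩ hMB) hMB
  refine ⟨M, hMn, hMab, ?_⟩
  intro g hg1
  by_cases hgM : g ∈ M
  · exact Or.inl hgM
  right
  by_cases hgN : g ∈ fittingSubgroup G
  · obtain ⟨y, -, hy, hy1⟩ := hGT1 _ M hNn hMn hNnil hMN hMab hmax g hgN hgM
    exact Or.inl ⟨y, hy, hy1⟩
  · have hgC : g ∉ Subgroup.centralizer (fittingSubgroup G : Set G) := fun h => hgN (hCN h)
    rw [Subgroup.mem_centralizer_iff] at hgC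
    push Not at hgC
    obtain ⟨x, hxN, hxg⟩ := hgC
    have hxN' : x ∈ fittingSubgroup G := hxN
    have hhN : g * x * g⁻¹ * x⁻¹ ∈ fittingSubgroup G :=
      Subgroup.mul_mem _ (hNn.conj_mem x hxN' g) (Subgroup.inv_mem _ hxN')
    have hh1 : g * x * g⁻¹ * x⁻¹ ≠ 1 := by
      intro h
      apply hxg
      have h2 : g * x = x * g := by
        calc g * x = (g * x * g⁻¹ * x⁻¹) * (x * g) := by group
          _ = x * g := by rw [h, one_mul]
      exact h2.symm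
    by_cases hhM : g * x * g⁻¹ * x⁻¹ ∈ M
    · exact Or.inl ⟨x, hhM, hh1⟩
    · obtain ⟨y, -, hy, hy1⟩ := hGT1 _ M hNn hMn hNnil hMN hMab hmax _ hhN hhM
      exact Or.inr ⟨x, y, hy, hy1⟩

end Cfsg.Agent.Lib.Helper8
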