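import Cfsg.Agent.Lib.Helper8.PSGT2
import Cfsg.Agent.Lib.Helper73.PSGT1

/-!
# S5876, piece GT2 (helper80): final statement, from `PSGT2` and helper73's piece GT1
-/

set_option autoImplicit false

open Cfsg

namespace Cfsg.Agent.Lib.Helper8

/-- PIECE GT2 -/
theorem exists_abelian_normal_comm_chain {G : Type*} [Group G] [Finite G] [Group.IsSolvable G] :
    ∃ M : Subgroup G, M.Normal ∧ (∀ a ∈ M, ∀ b ∈ M, a * b = b * a) ∧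
      ∀ g : G, g ≠ 1 →
        g ∈ M ∨
        (∃ x : G, g * x * g⁻¹ * x⁻¹ ∈ M ∧ g * x * g⁻¹ * x⁻¹ ≠ 1) ∨
        (∃ x y : G, (g * x * g⁻¹ * x⁻¹) * y * (g * x * g⁻¹ * x⁻¹)⁻¹ * y⁻¹ ∈ M ∧
           (g * x * g⁻¹ * x⁻¹) * y * (g * x * g⁻¹ * x⁻¹)⁻¹ * y⁻¹ ≠ 1) :=
  exists_abelian_normal_comm_chain_of
    (fun N M hN hM =>
      @Cfsg.Agent.Lib.Helper73.exists_comm_mem_of_maximal_abelian _ _ _ N M hN hM)

end Cfsg.Agent.Lib.Helper8
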