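import Mathlib
import Cfsg.Agent.Lib.Helper91.SuU

/-!
# S5172, piece EA4 (helper91): a block upper triangular `p`-element of the unitary group whose
upper left block is upper triangular lies in the standard Sylow `p`-subgroup
-/

set_option autoImplicit false

namespace Cfsg.Agent.Lib.Helper8.SuEA4

open Matrix Cfsg.Agent.Lib.Helper91.SpU Cfsg.Agent.Lib.Helper91.SuU

theorem tri_mul (m : ℕ) (K : Type*) [Field K] {A B : Matrix (Fin m) (Fin m) K}
    (hA : ∀ i j : Fin m, j < i → A i j = 0) (hB : ∀ i j : Fin m, j < i → B i j = 0) :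
    (∀ i j : Fin m, j < i → (A * B) i j = 0) ∧ ∀ i : Fin m, (A * B) i i = A i i * B i i := by
  constructor
  · intro i j hji
    rw [Matrix.mul_apply]
    apply Finset.sum_eq_zero
    intro l _
    by_cases hl : l < i
    · rw [hA i l hl, zero_mul]
    · rw [hB l j (lt_of_lt_of_le hji (not_lt.mp hl)), mul_zero]
  · intro i
    rw [Matrix.mul_apply]
    rw [Finset.sum_eq_single i]
    · intro l _ hl
      rcases lt_or_gt_of_ne hl with h | h
      · rw [hA i l h, zero_mul]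
      · rw [hB l i h, mul_zero]
    · intro h
      exact absurd (Finset.mem_univ i) h

theorem tri_pow (m : ℕ) (K : Type*) [Field K] {A : Matrix (Fin m) (Fin m) K}
    (hA : ∀ i j : Fin m, j < i → A i j = 0) (n : ℕ) :
    (∀ i j : Fin m, j < i → (A ^ n) i j = 0) ∧ ∀ i : Fin m, (A ^ n) i i = (A i i) ^ n := by
  induction n with
  | zero =>
    constructor
    · intro i j hji
      rw [pow_zero, Matrix.one_apply_ne (ne_of_gt hji)]
    · intro i
      rw [pow_zero, pow_zero, Matrix.one_apply_eq]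
  | succ n ih =>
    have h := tri_mul m K ih.1 hA
    constructor
    · intro i j hji
      rw [pow_succ]
      exact h.1 i j hji
    · intro i
      rw [pow_succ, pow_succ, h.2 i, ih.2 i]

theorem blocks_mul (l : ℕ) (K : Type*) [Field K]
    (X Y : Matrix (Fin l ⊕ Fin l) (Fin l ⊕ Fin l) K)
    (hX : X.toBlocks₂₁ = 0) (hY : Y.toBlocks₂₁ = 0) :
    (X * Y).toBlocks₂₁ = 0 ∧ (X * Y).toBlocks₁₁ = X.toBlocks₁₁ * Y.toBlocks₁₁ := by
  have eX : X = fromBlocks X.toBlocks₁₁ X.toBlocks₁₂ 0 X.toBlocks₂₂ := by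
    have h := (Matrix.fromBlocks_toBlocks X).symm
    rw [hX] at h
    exact h
  have eY : Y = fromBlocks Y.toBlocks₁₁ Y.toBlocks₁₂ 0 Y.toBlocks₂₂ := by
    have h := (Matrix.fromBlocks_toBlocks Y).symm
    rw [hY] at h
    exact h
  have e : X * Y = fromBlocks (X.toBlocks₁₁ * Y.toBlocks₁₁)
      (X.toBlocks₁₁ * Y.toBlocks₁₂ + X.toBlocks₁₂ * Y.toBlocks₂₂) 0
      (X.toBlocks₂₂ * Y.toBlocks₂₂) := by
    conv_lhs => rw [eX, eY]
    rw [Matrix.fromBlocks_multiply]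
    simp
  rw [e]
  exact ⟨Matrix.toBlocks_fromBlocks₂₁ _ _ _ _, Matrix.toBlocks_fromBlocks₁₁ _ _ _ _⟩

theorem blocks_one (l : ℕ) (K : Type*) [Field K] :
    (1 : Matrix (Fin l ⊕ Fin l) (Fin l ⊕ Fin l) K).toBlocks₂₁ = 0 ∧
      (1 : Matrix (Fin l ⊕ Fin l) (Fin l ⊕ Fin l) K).toBlocks₁₁ = 1 := by
  rw [← Matrix.fromBlocks_one]
  exact ⟨Matrix.toBlocks_fromBlocks₂₁ _ _ _ _, Matrix.toBlocks_fromBlocks₁₁ _ _ _ _⟩

theorem pow_blocks (l : ℕ) (K : Type*) [Field K] (σ : K →+* K) (g : GU l K σ)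
    (h1 : (mat l K σ g).toBlocks₂₁ = 0) (n : ℕ) :
    (mat l K σ (g ^ n)).toBlocks₂₁ = 0 ∧
      (mat l K σ (g ^ n)).toBlocks₁₁ = (mat l K σ g).toBlocks₁₁ ^ n := by
  induction n with
  | zero =>
    rw [pow_zero, pow_zero, mat_one]
    exact blocks_one l K
  | succ n ih =>
    rw [pow_succ, mat_mul]
    have h := blocks_mul l K _ _ ih.1 h1
    refine ⟨h.1, ?_⟩
    rw [h.2, ih.2, pow_succ]

theorem pelem_tri_inU (l : ℕ) (K : Type*) [Field K] (σ : K →+* K) (p : ℕ) [Fact p.Prime]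
    [CharP K p] (g : GU l K σ) (h1 : (mat l K σ g).toBlocks₂₁ = 0)
    (h2 : ∀ i j : Fin l, j < i → (mat l K σ g).toBlocks₁₁ i j = 0) (k : ℕ)
    (hk : g ^ p ^ k = 1) : InU l K σ g := by
  refine ⟨h1, h2, ?_⟩
  intro i
  have hA : (mat l K σ g).toBlocks₁₁ ^ (p ^ k) = 1 := by
    rw [← (pow_blocks l K σ g h1 (p ^ k)).2, hk, mat_one]
    exact (blocks_one l K).2
  have hd : ((mat l K σ g).toBlocks₁₁ i i) ^ (p ^ k) = 1 := by
    rw [← (tri_pow l K h2 (p ^ k)).2 i, hA, Matrix.one_apply_eq]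
  have h0 : ((mat l K σ g).toBlocks₁₁ i i - 1) ^ (p ^ k) = 0 := by
    rw [sub_pow_char_pow, hd, one_pow, sub_self]
  exact sub_eq_zero.mp (pow_eq_zero_iff (pow_ne_zero k (Fact.out : p.Prime).ne_zero) |>.mp h0)

end Cfsg.Agent.Lib.Helper8.SuEA4
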