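import Mathlib
import Cfsg.Prelude.Def_GeometricClasses

/-!
# S5980 piece TD2-ORTHINV (helper8 for helper98): an isometry involution of a symmetric bilinear
form with prescribed eigenvalue multiplicities (from an orthogonal basis).
-/

set_option autoImplicit false

namespace Cfsg.Agent.Lib.Helper98.TD2

open Matrix Polynomial
open scoped Kronecker

theorem td2orthinv_prod {F : Type*} [Field F] (b t : ℕ) (ht : t ≤ b) :
    ∏ i : Fin b, (X - C (if (i : ℕ) < t then (-1 : F) else 1)) =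
      (X - 1) ^ (b - t) * (X + 1) ^ t := by
  rw [Fin.prod_univ_eq_prod_range (fun i => (X - C (if i < t then (-1 : F) else 1) : F[X])) b]
  obtain ⟨m, rfl⟩ := Nat.exists_eq_add_of_le ht
  rw [Finset.prod_range_add, Nat.add_sub_cancel_left, mul_comm]
  congr 1
  · rw [Finset.prod_eq_pow_card (b := (X - 1 : F[X])) (fun i _ => by
      rw [if_neg (by omega), map_one]), Finset.card_range]
  · rw [Finset.prod_eq_pow_card (b := (X + 1 : F[X])) (fun i hi => by
      rw [if_pos (Finset.mem_range.mp hi), map_neg, map_one, sub_neg_eq_add]), Finset.card_range]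

/-- a symmetric matrix is congruent to a diagonal one (characteristic `≠ 2`) -/
theorem td2orthinv_diag {F : Type*} [Field F] (h2 : (2 : F) ≠ 0) {b : ℕ}
    (G : Matrix (Fin b) (Fin b) F) (hG : G.IsSymm) :
    ∃ (Q Q' : Matrix (Fin b) (Fin b) F) (d : Fin b → F), Q * Q' = 1 ∧ Q' * Q = 1 ∧
      Qᵀ * G * Q = Matrix.diagonal d := by
  have hinv2 : Invertible (2 : F) := invertibleOfNonzero h2
  have hsymm : (Matrix.toBilin' G).IsSymm := Matrix.isSymm_toBilin'_iff_isSymm.mpr hG
  obtain ⟨v, hv⟩ := LinearMap.BilinForm.exists_orthogonal_basis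
    (LinearMap.BilinForm.isSymm_iff.mp hsymm)
  obtain ⟨w, hw⟩ : ∃ w : Module.Basis (Fin b) F (Fin b → F),
      w = v.reindex (finCongr (Module.finrank_fin_fun F)) := ⟨_, rfl⟩
  refine ⟨(Pi.basisFun F (Fin b)).toMatrix w, w.toMatrix (Pi.basisFun F (Fin b)),
    fun i => Matrix.toBilin' G (w i) (w i), Module.Basis.toMatrix_mul_toMatrix_flip _ _,
    Module.Basis.toMatrix_mul_toMatrix_flip _ _, ?_⟩
  have h1 := LinearMap.BilinForm.toMatrix_mul_basis_toMatrix (b := Pi.basisFun F (Fin b)) w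
    (Matrix.toBilin' G)
  rw [LinearMap.BilinForm.toMatrix_basisFun, LinearMap.BilinForm.toMatrix'_toBilin'] at h1
  rw [h1]
  ext i j
  rw [LinearMap.BilinForm.toMatrix_apply, Matrix.diagonal_apply]
  split_ifs with hij
  · rw [hij]
  · rw [hw, Module.Basis.reindex_apply, Module.Basis.reindex_apply]
    exact hv (fun h => hij ((finCongr (Module.finrank_fin_fun F)).symm.injective h))

/-- the matrix form: an involution preserving a symmetric matrix `G` by congruence, with
prescribed characteristic polynomial -/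
theorem td2orthinv_main {F : Type*} [Field F] (h2 : (2 : F) ≠ 0) {b : ℕ}
    (G : Matrix (Fin b) (Fin b) F) (hG : G.IsSymm) (t : ℕ) (ht : t ≤ b) :
    ∃ B : Matrix (Fin b) (Fin b) F, B * B = 1 ∧ Bᵀ * G * B = G ∧
      B.charpoly = (X - 1) ^ (b - t) * (X + 1) ^ t := by
  obtain ⟨Q, Q', d, hQQ', hQ'Q, hD⟩ := td2orthinv_diag h2 G hG
  obtain ⟨E, hE⟩ : ∃ E : Matrix (Fin b) (Fin b) F,
      E = Matrix.diagonal (fun i : Fin b => if (i : ℕ) < t then (-1 : F) else 1) := ⟨_, rfl⟩
  have hEE : E * E = 1 := by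
    rw [hE, Matrix.diagonal_mul_diagonal, ← Matrix.diagonal_one]
    congr 1
    funext i
    split_ifs <;> simp
  have hET : Eᵀ = E := by rw [hE, Matrix.diagonal_transpose]
  have hEDE : E * Matrix.diagonal d * E = Matrix.diagonal d := by
    rw [hE, Matrix.diagonal_mul_diagonal, Matrix.diagonal_mul_diagonal]
    congr 1
    funext i
    split_ifs <;> simp
  refine ⟨Q * E * Q', ?_, ?_, ?_⟩
  · calc Q * E * Q' * (Q * E * Q') = Q * E * (Q' * Q) * E * Q' := by
          simp only [Matrix.mul_assoc]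
      _ = Q * (E * E) * Q' := by rw [hQ'Q, Matrix.mul_one, Matrix.mul_assoc Q E E]
      _ = 1 := by rw [hEE, Matrix.mul_one, hQQ']
  · have hGD : G = Q'ᵀ * Matrix.diagonal d * Q' := by
      rw [← hD]
      calc G = (Q * Q')ᵀ * G * (Q * Q') := by
            rw [hQQ', Matrix.transpose_one, Matrix.one_mul, Matrix.mul_one]
        _ = Q'ᵀ * (Qᵀ * G * Q) * Q' := by
            rw [Matrix.transpose_mul]
            simp only [Matrix.mul_assoc]
    calc (Q * E * Q')ᵀ * G * (Q * E * Q')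
        = Q'ᵀ * (E * (Qᵀ * G * Q) * E) * Q' := by
          rw [Matrix.transpose_mul, Matrix.transpose_mul, hET]
          simp only [Matrix.mul_assoc]
      _ = Q'ᵀ * Matrix.diagonal d * Q' := by rw [hD, hEDE]
      _ = G := hGD.symm
  · rw [Matrix.mul_assoc, Matrix.charpoly_mul_comm, Matrix.mul_assoc, hQ'Q, Matrix.mul_one, hE,
      Matrix.charpoly_diagonal]
    exact td2orthinv_prod b t ht

theorem exists_orth_invol {F : Type*} [Field F] (h2 : (2 : F) ≠ 0) {b : ℕ}
    (f₂ : (Fin b → F) → (Fin b → F) → F) (hf₂ : Cfsg.Geo.IsSymmetricForm f₂) (t : ℕ)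
    (ht : t ≤ b) :
    ∃ B : Matrix (Fin b) (Fin b) F, B * B = 1 ∧
      Bᵀ * Cfsg.Geo.gramMatrix f₂ * B = Cfsg.Geo.gramMatrix f₂ ∧
      B.charpoly = (X - 1) ^ (b - t) * (X + 1) ^ t :=
  td2orthinv_main h2 (Cfsg.Geo.gramMatrix f₂)
    (Matrix.IsSymm.ext fun _ _ => hf₂.symm _ _) t ht

end Cfsg.Agent.Lib.Helper98.TD2
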