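import Mathlib
import Cfsg.Agent.Lib.Helper98.U84Defs

/-!
# S5984 piece U84-ORDCOP (helper8 for helper98): an odd prime `r` whose order of `q` mod `r` is
not `≡ 2 (mod 4)` does not divide `q^(m^2) ∏ (q^(2l+1) + 1)`.
-/

set_option autoImplicit false

namespace Cfsg.Agent.Lib.Helper98.U84

open Matrix Polynomial

theorem not_dvd_odd_part {q r : ℕ} (hr : r.Prime) (hr2 : r ≠ 2) (hrq : ¬ r ∣ q)
    (hi : orderOf (q : ZMod r) % 4 ≠ 2) (m : ℕ) :
    ¬ r ∣ q ^ (m ^ 2) * ∏ l ∈ Finset.range m, (q ^ (2 * l + 1) + 1) := by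
  intro hdvd
  have hfact : Fact r.Prime := ⟨hr⟩
  rcases (Nat.Prime.dvd_mul hr).mp hdvd with h | h
  · exact hrq (hr.dvd_of_dvd_pow h)
  · obtain ⟨l, -, hl⟩ := (Prime.dvd_finsetProd_iff hr.prime _).mp h
    apply hi
    have hx : (q : ZMod r) ^ (2 * l + 1) = -1 := by
      have h1 : ((q ^ (2 * l + 1) + 1 : ℕ) : ZMod r) = 0 := (ZMod.natCast_eq_zero_iff _ _).mpr hl
      rw [Nat.cast_add, Nat.cast_pow, Nat.cast_one] at h1
      exact eq_neg_of_add_eq_zero_left h1
    have hx2 : (q : ZMod r) ^ (2 * (2 * l + 1)) = 1 := by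
      rw [mul_comm, pow_mul, hx]
      norm_num
    have hne : (q : ZMod r) ^ (2 * l + 1) ≠ 1 := by
      rw [hx]
      intro h1
      have h2 : ((2 : ℕ) : ZMod r) = 0 := by
        have h4 : ((2 : ℕ) : ZMod r) = 1 + 1 := by norm_num
        rw [h4]
        nth_rewrite 1 [← h1]
        ring
      have h3 := (ZMod.natCast_eq_zero_iff 2 r).mp h2
      exact hr2 ((Nat.prime_dvd_prime_iff_eq hr Nat.prime_two).mp h3)
    have hd : orderOf (q : ZMod r) ∣ 2 * (2 * l + 1) := orderOf_dvd_of_pow_eq_one hx2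
    have hnd : ¬ orderOf (q : ZMod r) ∣ 2 * l + 1 :=
      fun h1 => hne (orderOf_dvd_iff_pow_eq_one.mp h1)
    obtain ⟨i, hi_def⟩ : ∃ i : ℕ, i = orderOf (q : ZMod r) := ⟨_, rfl⟩
    rw [← hi_def] at hd hnd ⊢
    rcases Nat.even_or_odd i with he | ho
    · obtain ⟨j, hj⟩ := he
      obtain ⟨c, hc⟩ := hd
      have hjc : 2 * l + 1 = j * c := by
        apply Nat.eq_of_mul_eq_mul_left (show 0 < 2 by norm_num)
        rw [hc, hj]
        ring
      have hjodd : Odd j := by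
        by_contra hje
        rw [Nat.not_odd_iff_even] at hje
        obtain ⟨j', hj'⟩ := hje
        have h5 : 2 * l + 1 = 2 * (j' * c) := by
          rw [hjc, hj']
          ring
        omega
      obtain ⟨j', hj'⟩ := hjodd
      omega
    · exfalso
      apply hnd
      exact Nat.Coprime.dvd_of_dvd_mul_left (Nat.coprime_two_right.mpr ho) hd

end Cfsg.Agent.Lib.Helper98.U84
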