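import Mathlib
import Cfsg.Agent.Lib.Helper44.UDDefs
import Cfsg.Agent.Lib.Helper44.UDKit2

/-!
# S5655 piece UD-E1 (helper8 for helper44): from a non-monomial element with a zero entry to a
non-monomial element fixing the line of `c0 = e_0 + e_1` (characteristic 2).
-/

set_option autoImplicit false
set_option linter.unusedSectionVars false
set_option linter.unusedVariables false

namespace Cfsg.Agent.Lib.Helper44.UD

open Matrix Cfsg.Agent.Lib.Helper93 Cfsg.Agent.Lib.Helper18 Cfsg.Agent.Lib.Helper7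

section
variable {F : Type*} [Field F] [Fintype F] {q n : ℕ}

/-- `(q+1)`-th powers are `(q-1)`-th roots of unity -/
theorem ude1_norm_pow (hF : Fintype.card F = q ^ 2) (x : F) (hx : x ≠ 0) :
    (x ^ (q + 1)) ^ (q - 1) = 1 := by
  have hq := herm_two_le hF
  rw [← pow_mul]
  have h1 : (q + 1) * (q - 1) = Fintype.card F - 1 := by
    rw [hF]
    have h2 := Nat.sq_sub_sq q 1
    rw [one_pow] at h2
    exact h2.symm
  rw [h1]
  exact FiniteField.pow_card_sub_one_eq_one x hx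

theorem ude1_pigeon (hF : Fintype.card F = q ^ 2) (s : Finset (Fin n)) (hs : q ≤ s.card)
    (f : Fin n → F) (hf : ∀ i ∈ s, f i ≠ 0) :
    ∃ i ∈ s, ∃ j ∈ s, i ≠ j ∧ f i ^ (q + 1) = f j ^ (q + 1) := by
  classical
  have hq := herm_two_le hF
  have ht : ((Polynomial.nthRoots (q - 1) (1 : F)).toFinset).card < s.card := by
    have h1 : ((Polynomial.nthRoots (q - 1) (1 : F)).toFinset).card ≤ q - 1 :=
      (Multiset.toFinset_card_le _).trans (Polynomial.card_nthRoots (q - 1) (1 : F))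
    omega
  have hmap : ∀ i ∈ s, f i ^ (q + 1) ∈ (Polynomial.nthRoots (q - 1) (1 : F)).toFinset := by
    intro i hi
    rw [Multiset.mem_toFinset, Polynomial.mem_nthRoots (by omega)]
    exact ude1_norm_pow hF _ (hf i hi)
  obtain ⟨i, hi, j, hj, hij, h⟩ := Finset.exists_ne_map_eq_of_card_lt_of_maps_to ht hmap
  exact ⟨i, hi, j, hj, hij, h⟩

theorem ude1_form2 (hF : Fintype.card F = q ^ 2) (x : Fin n → F) (p r : Fin n) (α β : F) :
    Cfsg.hermForm n F q x (α • Pi.single p 1 + β • Pi.single r 1) = α ^ q * x p + β ^ q * x r := by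
  rw [hf_add_right hF, hf_smul_right, hf_smul_right, hf_single_right hF, hf_single_right hF]

theorem ude1_form (hF : Fintype.card F = q ^ 2) (x : Fin n → F) (i j : Fin n) (s : F) :
    Cfsg.hermForm n F q x (Pi.single i 1 + s • Pi.single j 1) = x i + s ^ q * x j := by
  rw [hf_add_right hF, hf_smul_right, hf_single_right hF, hf_single_right hF]

theorem ude1_isMono_of_cols {M : Matrix (Fin n) (Fin n) F}
    (h : ∀ c, ∃ (r : Fin n) (a : F), M *ᵥ Pi.single c 1 = a • Pi.single r (1 : F)) :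
    IsMono M := by
  intro c
  obtain ⟨r, a, ha⟩ := h c
  refine ⟨r, fun i' hi' => ?_⟩
  by_contra hne
  apply hi'
  have h1 := udk_col M c i'
  rw [ha, Pi.smul_apply, Pi.single_eq_of_ne hne, smul_zero] at h1
  exact h1.symm

theorem ude1_double (h2 : (2 : F) = 0) (x : Fin n → F) : x + x = 0 := by
  rw [← two_smul F x, h2, zero_smul]

/-- the transvection with centre `e_i + t e_j` and parameter `1` is monomial in characteristic 2 -/
theorem ude1_swap (hF : Fintype.card F = q ^ 2) (h2 : (2 : F) = 0) (i j : Fin n) (hij : i ≠ j)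
    (t : F) (ht : t ^ (q + 1) = 1) :
    Cfsg.hermForm n F q (Pi.single i 1 + t • Pi.single j 1)
        (Pi.single i 1 + t • Pi.single j 1) = 0 ∧
      IsMono (Cfsg.unitaryTransvection n q (Pi.single i (1 : F) + t • Pi.single j 1) 1) := by
  have hq0 := herm_q_ne_zero hF
  have hwi : (Pi.single i (1 : F) + t • Pi.single j 1 : Fin n → F) i = 1 := by
    simp [Pi.single_eq_of_ne hij]
  have hwj : (Pi.single i (1 : F) + t • Pi.single j 1 : Fin n → F) j = t := by
    simp [Pi.single_eq_of_ne hij.symm]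
  have hwc : ∀ c, c ≠ i → c ≠ j → (Pi.single i (1 : F) + t • Pi.single j 1 : Fin n → F) c = 0 := by
    intro c hci hcj
    simp [Pi.single_eq_of_ne hci, Pi.single_eq_of_ne hcj]
  have hww : Cfsg.hermForm n F q (Pi.single i 1 + t • Pi.single j 1)
      (Pi.single i 1 + t • Pi.single j 1) = 0 := by
    rw [ude1_form hF, hwi, hwj, ← pow_succ, ht, one_add_one_eq_two]
    exact h2
  refine ⟨hww, ?_⟩
  apply ude1_isMono_of_cols
  intro c
  rw [unitaryTransvection_mulVec, hf_single_left, one_mul]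
  by_cases hci : c = i
  · refine ⟨j, t, ?_⟩
    rw [hci, hwi, one_pow, one_smul, ← add_assoc, ude1_double h2, zero_add]
  · by_cases hcj : c = j
    · refine ⟨i, t ^ q, ?_⟩
      rw [hcj, hwj, smul_add, smul_smul, ← pow_succ, ht, one_smul, add_comm (t ^ q • _) _,
        ← add_assoc, ude1_double h2, zero_add]
    · refine ⟨c, 1, ?_⟩
      rw [hwc c hci hcj, zero_pow hq0, zero_smul, add_zero, one_smul]

end

theorem ud_e1 {F : Type*} [Field F] [Fintype F] (q : ℕ) (h1 : MonoExStmt F q) : E1Stmt F q := by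
  classical
  intro hF h2 N hN hqN X hX hM hNC hCZ y hyX hym hy0
  obtain ⟨z, a, hza⟩ := hy0
  have hq0 := herm_q_ne_zero hF
  have hq2 := herm_two_le hF
  have hXG : X ≤ Cfsg.GU (N + 2) F q := hX.trans inf_le_left
  have hypres : suPres q (N + 2) (y : Matrix (Fin (N + 2)) (Fin (N + 2)) F) := hXG hyX
  -- 1. the other entries of column `a` are nonzero
  have hcol : ∀ i, i ≠ z → (y : Matrix (Fin (N + 2)) (Fin (N + 2)) F) i a ≠ 0 := by
    intro i hi h0
    exact hCZ y hyX hym a i z hi ⟨h0, hza⟩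
  -- 2. pigeonhole
  obtain ⟨i, hi, j, hj, hij, hnorm⟩ := ude1_pigeon hF (Finset.univ.erase z) (by
      rw [Finset.card_erase_of_mem (Finset.mem_univ z), Finset.card_univ, Fintype.card_fin]
      omega)
    (fun i => (y : Matrix (Fin (N + 2)) (Fin (N + 2)) F) i a)
    (fun i hi => hcol i (Finset.ne_of_mem_erase hi))
  have hvi := hcol i (Finset.ne_of_mem_erase hi)
  have hvj := hcol j (Finset.ne_of_mem_erase hj)
  -- 3. the scalar `t`
  obtain ⟨t, ht_def⟩ : ∃ t : F, t = (y : Matrix (Fin (N + 2)) (Fin (N + 2)) F) j a /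
      (y : Matrix (Fin (N + 2)) (Fin (N + 2)) F) i a := ⟨_, rfl⟩
  have ht : t ^ (q + 1) = 1 := by
    rw [ht_def, div_pow]
    exact (div_eq_one_iff_eq (pow_ne_zero _ hvi)).mpr hnorm.symm
  have htq : t ^ q * t = 1 := by rw [← pow_succ]; exact ht
  have hyj : (y : Matrix (Fin (N + 2)) (Fin (N + 2)) F) j a =
      t * (y : Matrix (Fin (N + 2)) (Fin (N + 2)) F) i a := by
    rw [ht_def, div_mul_cancel₀ _ hvi]
  obtain ⟨w, hw_def⟩ : ∃ w : Fin (N + 2) → F, w = Pi.single i 1 + t • Pi.single j 1 := ⟨_, rfl⟩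
  obtain ⟨hww, hτm⟩ := ude1_swap hF h2 i j hij t ht
  rw [← hw_def] at hww hτm
  -- 4. the transvection lies in `X`
  have hτpres : suPres q (N + 2) (Cfsg.unitaryTransvection (N + 2) q w 1) := fun x y' =>
    transvection_preserves hF _ w 1 hww (by rw [one_pow, one_add_one_eq_two]; exact h2) x y'
  have hτdet := transvection_det (q := q) (N + 2) w (1 : F) hww
  obtain ⟨gτ, hgτ, hgτS⟩ := exists_gl_of_pres hτpres hτdet
  have hgτX : gτ ∈ X := hM gτ hgτS.1 ((mem_sl_iff gτ).mp hgτS.2) (by rw [hgτ]; exact hτm)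
  -- 5. it fixes the column `v = y e_a`
  have hvw : Cfsg.hermForm (N + 2) F q
      ((y : Matrix (Fin (N + 2)) (Fin (N + 2)) F) *ᵥ Pi.single a 1) w = 0 := by
    rw [hw_def, ude1_form hF, udk_col, udk_col, hyj, ← mul_assoc, htq, one_mul, ← two_mul, h2,
      zero_mul]
  have hτv : Cfsg.unitaryTransvection (N + 2) q w 1 *ᵥ
      ((y : Matrix (Fin (N + 2)) (Fin (N + 2)) F) *ᵥ Pi.single a 1) =
      (y : Matrix (Fin (N + 2)) (Fin (N + 2)) F) *ᵥ Pi.single a 1 := by
    rw [unitaryTransvection_mulVec, hvw, mul_zero, zero_smul, add_zero]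
  have hgX : y⁻¹ * gτ * y ∈ X := X.mul_mem (X.mul_mem (X.inv_mem hyX) hgτX) hyX
  have hgfix : ((y⁻¹ * gτ * y : GL (Fin (N + 2)) F) : Matrix (Fin (N + 2)) (Fin (N + 2)) F) *ᵥ
      Pi.single a 1 = Pi.single a 1 := by
    rw [Units.val_mul, Units.val_mul, ← Matrix.mulVec_mulVec, ← Matrix.mulVec_mulVec, hgτ, hτv,
      udk_inv_mulVec]
  have hgmono : IsMono ((y⁻¹ * gτ * y : GL (Fin (N + 2)) F) :
      Matrix (Fin (N + 2)) (Fin (N + 2)) F) := by
    by_contra hnm
    apply hNC _ hgX hnm a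
    refine ⟨a, fun i' hi' => ?_⟩
    by_contra hne
    apply hi'
    have h4 := udk_col ((y⁻¹ * gτ * y : GL (Fin (N + 2)) F) :
      Matrix (Fin (N + 2)) (Fin (N + 2)) F) a i'
    rw [hgfix, Pi.single_eq_of_ne hne] at h4
    exact h4.symm
  -- 6. the conjugate is the transvection with centre `w' = y⁻¹ w`
  obtain ⟨w', hw'_def⟩ : ∃ w' : Fin (N + 2) → F, w' =
      ((y⁻¹ : GL (Fin (N + 2)) F) : Matrix (Fin (N + 2)) (Fin (N + 2)) F) *ᵥ w := ⟨_, rfl⟩
  have hyinv := udk_inv_pres y hypres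
  have hgT : ((y⁻¹ * gτ * y : GL (Fin (N + 2)) F) : Matrix (Fin (N + 2)) (Fin (N + 2)) F) =
      Cfsg.unitaryTransvection (N + 2) q w' 1 := by
    rw [Units.val_mul, Units.val_mul, hgτ, conj_transvection _ hyinv w 1, mul_assoc,
      ← Units.val_mul, inv_mul_cancel, Units.val_one, mul_one, hw'_def]
  have hw'w' : Cfsg.hermForm (N + 2) F q w' w' = 0 := by
    rw [hw'_def, hyinv, hww]
  have hyw' : (y : Matrix (Fin (N + 2)) (Fin (N + 2)) F) *ᵥ w' = w := by
    rw [hw'_def]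
    exact udk_mulVec_inv y w
  have hw0 : w ≠ 0 := by
    intro h0
    have h3 : w i = 1 := by
      rw [hw_def]
      simp [Pi.single_eq_of_ne hij]
    rw [h0] at h3
    exact zero_ne_one h3
  have hw'0 : w' ≠ 0 := by
    intro h0
    apply hw0
    rw [← hyw', h0, Matrix.mulVec_zero]
  obtain ⟨p, r, hpr, hwp, hwr⟩ := udk_two_nonzero hF w' hw'w' hw'0
  have hent : ∀ s', s' ≠ p → w' s' ≠ 0 →
      ((y⁻¹ * gτ * y : GL (Fin (N + 2)) F) : Matrix (Fin (N + 2)) (Fin (N + 2)) F) s' p ≠ 0 := by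
    intro s' hs'p hs'0
    have h4 := udk_col (Cfsg.unitaryTransvection (N + 2) q w' (1 : F)) p s'
    rw [unitaryTransvection_mulVec, hf_single_left, one_mul, Pi.add_apply,
      Pi.single_eq_of_ne hs'p, zero_add, Pi.smul_apply, smul_eq_mul] at h4
    rw [hgT, ← h4]
    exact mul_ne_zero (pow_ne_zero _ hwp) hs'0
  have hsupp : ∀ s, s ≠ p → s ≠ r → w' s = 0 := by
    intro s hsp hsr
    by_contra hs0
    obtain ⟨k, hk⟩ := hgmono p
    have e1 := hk s (hent s hsp hs0)
    have e2 := hk r (hent r hpr.symm hwr)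
    exact hsr (e1.trans e2.symm)
  have hw'eq : w' = w' p • Pi.single p 1 + w' r • Pi.single r 1 := by
    funext s
    by_cases hsp : s = p
    · rw [hsp]
      simp [Pi.single_eq_of_ne hpr]
    · by_cases hsr : s = r
      · rw [hsr]
        simp [Pi.single_eq_of_ne hpr.symm]
      · simp [Pi.single_eq_of_ne hsp, Pi.single_eq_of_ne hsr, hsupp s hsp hsr]
  have hnorm2 : w' p ^ (q + 1) + w' r ^ (q + 1) = 0 := by
    have h3 := congrArg (Cfsg.hermForm (N + 2) F q w') hw'eq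
    rw [hw'w', ude1_form2 hF] at h3
    rw [pow_succ, pow_succ]
    exact h3.symm
  have hρ : (w' r / w' p) ^ (q + 1) = 1 := by
    rw [div_pow]
    apply (div_eq_one_iff_eq (pow_ne_zero _ hwp)).mpr
    linear_combination hnorm2 - w' p ^ (q + 1) * h2
  -- 7. two monomial elements
  have h01 : (0 : Fin (N + 2)) ≠ 1 := Fin.zero_ne_one
  obtain ⟨g2, hg2U, hg2d, hg2m, hg2a, hg2b⟩ := h1 hF (N + 2) (by omega) 0 1 p r 1 (w' r / w' p)
    h01 hpr (one_pow _) hρ
  obtain ⟨g1, hg1U, hg1d, hg1m, hg1a, hg1b⟩ := h1 hF (N + 2) (by omega) i j 0 1 1 t⁻¹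
    hij h01 (one_pow _) (by rw [inv_pow, ht, inv_one])
  have hg1X : g1 ∈ X := hM g1 hg1U hg1d hg1m
  have hg2X : g2 ∈ X := hM g2 hg2U hg2d hg2m
  have ht0 : t ≠ 0 := by
    rintro rfl
    rw [zero_pow (Nat.succ_ne_zero q)] at ht
    exact zero_ne_one ht
  refine ⟨g1 * y * g2, X.mul_mem (X.mul_mem hg1X hyX) hg2X, ?_, (w' p)⁻¹, ?_⟩
  · intro hmono
    apply hym
    have h3 : (y : Matrix (Fin (N + 2)) (Fin (N + 2)) F) =
        ((g1⁻¹ * (g1 * y * g2) * g2⁻¹ : GL (Fin (N + 2)) F) :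
          Matrix (Fin (N + 2)) (Fin (N + 2)) F) := by
      congr 1
      group
    rw [h3, Units.val_mul, Units.val_mul]
    exact Cfsg.Agent.Lib.Helper65.Mono.IsMono.mul
      (Cfsg.Agent.Lib.Helper65.Mono.IsMono.mul
        (Cfsg.Agent.Lib.Helper65.Mono.isMono_inv g1 hg1m) hmono)
      (Cfsg.Agent.Lib.Helper65.Mono.isMono_inv g2 hg2m)
  · have h3 : (g2 : Matrix (Fin (N + 2)) (Fin (N + 2)) F) *ᵥ c0 N = (w' p)⁻¹ • w' := by
      unfold c0
      rw [Matrix.mulVec_add, hg2a, hg2b, one_smul]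
      have h5 : (w' p)⁻¹ • w' = (w' p)⁻¹ • (w' p • Pi.single p 1 + w' r • Pi.single r 1) := by
        rw [← hw'eq]
      rw [h5, smul_add, smul_smul, smul_smul, inv_mul_cancel₀ hwp, one_smul, div_eq_inv_mul]
    rw [Units.val_mul, Units.val_mul, ← Matrix.mulVec_mulVec, ← Matrix.mulVec_mulVec, h3,
      Matrix.mulVec_smul, hyw', hw_def, Matrix.mulVec_smul, Matrix.mulVec_add, Matrix.mulVec_smul,
      hg1a, hg1b, one_smul, smul_smul, mul_inv_cancel₀ ht0, one_smul]
    rfl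

end Cfsg.Agent.Lib.Helper44.UD
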