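import Cfsg.Agent.Lib.Helper22.W2Defs

/-! Project W2 (S4707, architect helper22), piece NORMDIV: a nontrivial normal subgroup of a primitive
permutation group of degree `2 * p` is transitive, so its order is divisible by `2 * p`. -/

set_option autoImplicit false

namespace Cfsg.Agent.Lib.Helper8.W2

open Cfsg Cfsg.Agent.Lib.Helper22.W2
open scoped ComplexConjugate

universe u

section perm

variable {α : Type*} [Fintype α] [DecidableEq α]

/-- PIECE NORMDIV -/
theorem normdiv {p : ℕ} (hp : 1 < p) (hα : Fintype.card α = 2 * p)
    (G : Subgroup (Equiv.Perm α)) (hprim : MulAction.IsPreprimitive G α) (K : Subgroup G)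
    (hK : K.Normal) (hne : K ≠ ⊥) : 2 * p ∣ Nat.card K := by
  have := hprim
  have := hK
  have hfix : MulAction.fixedPoints K α ≠ Set.univ := by
    intro h
    apply hne
    rw [Subgroup.eq_bot_iff_forall]
    intro k hk
    apply Subtype.ext
    apply Equiv.ext
    intro a
    have ha : a ∈ MulAction.fixedPoints K α := by rw [h]; exact Set.mem_univ a
    exact ha ⟨k, hk⟩
  have : MulAction.IsPretransitive K α :=
    MulAction.IsQuasiPreprimitive.isPretransitive_of_normal hfix
  have hpos : 0 < Fintype.card α := by rw [hα]; omega
  obtain ⟨a⟩ : Nonempty α := Fintype.card_pos_iff.1 hpos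
  have h1 := MulAction.index_stabilizer_of_transitive K a
  rw [Nat.card_eq_fintype_card, hα] at h1
  rw [← h1]
  exact Subgroup.index_dvd_card _

end perm

end Cfsg.Agent.Lib.Helper8.W2
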